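import Cfsg.Agent.Lib.H35.TCMSoA.Chk
set_option autoImplicit false
set_option maxRecDepth 100000
set_option linter.all false
namespace H35.TCMSoA
open H35.TC
section
variable {G : Type} [Group G] {g : Lt → G} {H : Subgroup G}
/-- hypotheses -/
abbrev Hy (g : Lt → G) (H : Subgroup G) : Prop := (∀ x, g (inv x) = (g x)⁻¹) ∧ (∀ r ∈ rels, (r.map g).prod = 1) ∧ ∀ r ∈ subs, (r.map g).prod ∈ H
theorem hM0 : 0 < M := by decide
theorem hat {r W : List Lt} {x : Lt} (hr : (r.map g).prod = 1) (k : ℕ) (h : r.drop k ++ r.take k = W ++ [x]) (z : G ⧸ H) : fa g x (act (fa g) W z) = z := hole_at hr k h z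
theorem pat (hy : Hy g H) {r W1 W2 : List Lt} (hr : (r.map g).prod = 1) (k : ℕ) (h : r.drop k ++ r.take k = W1 ++ (W2.map inv).reverse) (z : G ⧸ H) : act (fa g) W1 z = act (fa g) W2 z := pair_at hy.1 hr k h z
theorem ivt (hy : Hy g H) (x x' : Lt) (hx : inv x = x') (z : G ⧸ H) : fa g x (fa g x' z) = z := inv_rel hy.1 x x' hx z
theorem rf_0 (hy : Hy g H) : (([.d, .g, .d, .g] : List Lt).map g).prod = 1 := hy.2.1 _ (by decide +kernel)
theorem rb_0 (hy : Hy g H) : (([.g, .d, .g, .d] : List Lt).map g).prod = 1 := inv_at hy.1 (rf_0 hy)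
theorem rf_1 (hy : Hy g H) : (([.e, .g, .e, .g] : List Lt).map g).prod = 1 := hy.2.1 _ (by decide +kernel)
theorem rb_1 (hy : Hy g H) : (([.g, .e, .g, .e] : List Lt).map g).prod = 1 := inv_at hy.1 (rf_1 hy)
theorem rf_2 (hy : Hy g H) : (([.e, .f, .e, .f] : List Lt).map g).prod = 1 := hy.2.1 _ (by decide +kernel)
theorem rb_2 (hy : Hy g H) : (([.f, .e, .f, .e] : List Lt).map g).prod = 1 := inv_at hy.1 (rf_2 hy)
theorem rf_3 (hy : Hy g H) : (([.d, .f, .d, .f] : List Lt).map g).prod = 1 := hy.2.1 _ (by decide +kernel)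
theorem rb_3 (hy : Hy g H) : (([.f, .d, .f, .d] : List Lt).map g).prod = 1 := inv_at hy.1 (rf_3 hy)
theorem rf_4 (hy : Hy g H) : (([.c, .g, .c, .g] : List Lt).map g).prod = 1 := hy.2.1 _ (by decide +kernel)
theorem rb_4 (hy : Hy g H) : (([.g, .c, .g, .c] : List Lt).map g).prod = 1 := inv_at hy.1 (rf_4 hy)
theorem rf_5 (hy : Hy g H) : (([.c, .f, .c, .f] : List Lt).map g).prod = 1 := hy.2.1 _ (by decide +kernel)
theorem rb_5 (hy : Hy g H) : (([.f, .c, .f, .c] : List Lt).map g).prod = 1 := inv_at hy.1 (rf_5 hy)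
theorem rf_6 (hy : Hy g H) : (([.c, .e, .c, .e] : List Lt).map g).prod = 1 := hy.2.1 _ (by decide +kernel)
theorem rb_6 (hy : Hy g H) : (([.e, .c, .e, .c] : List Lt).map g).prod = 1 := inv_at hy.1 (rf_6 hy)
theorem rf_7 (hy : Hy g H) : (([.a, .g, .a, .g] : List Lt).map g).prod = 1 := hy.2.1 _ (by decide +kernel)
theorem rb_7 (hy : Hy g H) : (([.g, .a, .g, .a] : List Lt).map g).prod = 1 := inv_at hy.1 (rf_7 hy)
theorem rf_8 (hy : Hy g H) : (([.b, .d, .b, .d] : List Lt).map g).prod = 1 := hy.2.1 _ (by decide +kernel)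
theorem rb_8 (hy : Hy g H) : (([.d, .b, .d, .b] : List Lt).map g).prod = 1 := inv_at hy.1 (rf_8 hy)
theorem rf_9 (hy : Hy g H) : (([.a, .f, .a, .f] : List Lt).map g).prod = 1 := hy.2.1 _ (by decide +kernel)
theorem rb_9 (hy : Hy g H) : (([.f, .a, .f, .a] : List Lt).map g).prod = 1 := inv_at hy.1 (rf_9 hy)
theorem rf_10 (hy : Hy g H) : (([.a, .e, .a, .e] : List Lt).map g).prod = 1 := hy.2.1 _ (by decide +kernel)
theorem rb_10 (hy : Hy g H) : (([.e, .a, .e, .a] : List Lt).map g).prod = 1 := inv_at hy.1 (rf_10 hy)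
theorem rf_11 (hy : Hy g H) : (([.a, .d, .a, .d] : List Lt).map g).prod = 1 := hy.2.1 _ (by decide +kernel)
theorem rb_11 (hy : Hy g H) : (([.d, .a, .d, .a] : List Lt).map g).prod = 1 := inv_at hy.1 (rf_11 hy)
theorem rf_12 (hy : Hy g H) : (([.a, .c, .a, .c] : List Lt).map g).prod = 1 := hy.2.1 _ (by decide +kernel)
theorem rb_12 (hy : Hy g H) : (([.c, .a, .c, .a] : List Lt).map g).prod = 1 := inv_at hy.1 (rf_12 hy)
theorem rf_13 (hy : Hy g H) : (([.b, .e, .b, .e] : List Lt).map g).prod = 1 := hy.2.1 _ (by decide +kernel)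
theorem rb_13 (hy : Hy g H) : (([.e, .b, .e, .b] : List Lt).map g).prod = 1 := inv_at hy.1 (rf_13 hy)
theorem rf_14 (hy : Hy g H) : (([.b, .f, .b, .f, .b, .f] : List Lt).map g).prod = 1 := hy.2.1 _ (by decide +kernel)
theorem rb_14 (hy : Hy g H) : (([.f, .b, .f, .b, .f, .b] : List Lt).map g).prod = 1 := inv_at hy.1 (rf_14 hy)
theorem rf_15 (hy : Hy g H) : (([.b, .g, .b, .g, .b, .g] : List Lt).map g).prod = 1 := hy.2.1 _ (by decide +kernel)
theorem rb_15 (hy : Hy g H) : (([.g, .b, .g, .b, .g, .b] : List Lt).map g).prod = 1 := inv_at hy.1 (rf_15 hy)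
theorem rf_16 (hy : Hy g H) : (([.d, .e, .d, .e, .d, .e] : List Lt).map g).prod = 1 := hy.2.1 _ (by decide +kernel)
theorem rb_16 (hy : Hy g H) : (([.e, .d, .e, .d, .e, .d] : List Lt).map g).prod = 1 := inv_at hy.1 (rf_16 hy)
theorem rf_17 (hy : Hy g H) : (([.b, .c, .b, .c, .b, .c] : List Lt).map g).prod = 1 := hy.2.1 _ (by decide +kernel)
theorem rb_17 (hy : Hy g H) : (([.c, .b, .c, .b, .c, .b] : List Lt).map g).prod = 1 := inv_at hy.1 (rf_17 hy)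
theorem rf_18 (hy : Hy g H) : (([.f, .g, .f, .g, .f, .g, .f, .g] : List Lt).map g).prod = 1 := hy.2.1 _ (by decide +kernel)
theorem rb_18 (hy : Hy g H) : (([.g, .f, .g, .f, .g, .f, .g, .f] : List Lt).map g).prod = 1 := inv_at hy.1 (rf_18 hy)
theorem rf_19 (hy : Hy g H) : (([.a, .b, .a, .b, .a, .b, .a, .b, .a, .b] : List Lt).map g).prod = 1 := hy.2.1 _ (by decide +kernel)
theorem rb_19 (hy : Hy g H) : (([.b, .a, .b, .a, .b, .a, .b, .a, .b, .a] : List Lt).map g).prod = 1 := inv_at hy.1 (rf_19 hy)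
theorem rf_20 (hy : Hy g H) : (([.c, .d, .c, .d, .c, .d, .c, .d, .c, .d, .c, .d, .c, .d, .c, .d] : List Lt).map g).prod = 1 := hy.2.1 _ (by decide +kernel)
theorem rb_20 (hy : Hy g H) : (([.d, .c, .d, .c, .d, .c, .d, .c, .d, .c, .d, .c, .d, .c, .d, .c] : List Lt).map g).prod = 1 := inv_at hy.1 (rf_20 hy)
theorem rf_21 (hy : Hy g H) : (([.a, .a] : List Lt).map g).prod = 1 := hy.2.1 _ (by decide +kernel)
theorem rb_21 (hy : Hy g H) : (([.a, .a] : List Lt).map g).prod = 1 := inv_at hy.1 (rf_21 hy)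
theorem rf_22 (hy : Hy g H) : (([.b, .b] : List Lt).map g).prod = 1 := hy.2.1 _ (by decide +kernel)
theorem rb_22 (hy : Hy g H) : (([.b, .b] : List Lt).map g).prod = 1 := inv_at hy.1 (rf_22 hy)
theorem rf_23 (hy : Hy g H) : (([.c, .c] : List Lt).map g).prod = 1 := hy.2.1 _ (by decide +kernel)
theorem rb_23 (hy : Hy g H) : (([.c, .c] : List Lt).map g).prod = 1 := inv_at hy.1 (rf_23 hy)
theorem rf_24 (hy : Hy g H) : (([.d, .d] : List Lt).map g).prod = 1 := hy.2.1 _ (by decide +kernel)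
theorem rb_24 (hy : Hy g H) : (([.d, .d] : List Lt).map g).prod = 1 := inv_at hy.1 (rf_24 hy)
theorem rf_25 (hy : Hy g H) : (([.e, .e] : List Lt).map g).prod = 1 := hy.2.1 _ (by decide +kernel)
theorem rb_25 (hy : Hy g H) : (([.e, .e] : List Lt).map g).prod = 1 := inv_at hy.1 (rf_25 hy)
theorem rf_26 (hy : Hy g H) : (([.f, .f] : List Lt).map g).prod = 1 := hy.2.1 _ (by decide +kernel)
theorem rb_26 (hy : Hy g H) : (([.f, .f] : List Lt).map g).prod = 1 := inv_at hy.1 (rf_26 hy)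
theorem rf_27 (hy : Hy g H) : (([.g, .g] : List Lt).map g).prod = 1 := hy.2.1 _ (by decide +kernel)
theorem rb_27 (hy : Hy g H) : (([.g, .g] : List Lt).map g).prod = 1 := inv_at hy.1 (rf_27 hy)
theorem rf_28 (hy : Hy g H) : (([.z, .g, .zi, .g] : List Lt).map g).prod = 1 := hy.2.1 _ (by decide +kernel)
theorem rb_28 (hy : Hy g H) : (([.g, .z, .g, .zi] : List Lt).map g).prod = 1 := inv_at hy.1 (rf_28 hy)
theorem rf_29 (hy : Hy g H) : (([.z, .f, .zi, .f] : List Lt).map g).prod = 1 := hy.2.1 _ (by decide +kernel)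
theorem rb_29 (hy : Hy g H) : (([.f, .z, .f, .zi] : List Lt).map g).prod = 1 := inv_at hy.1 (rf_29 hy)
theorem rf_30 (hy : Hy g H) : (([.z, .e, .zi, .e] : List Lt).map g).prod = 1 := hy.2.1 _ (by decide +kernel)
theorem rb_30 (hy : Hy g H) : (([.e, .z, .e, .zi] : List Lt).map g).prod = 1 := inv_at hy.1 (rf_30 hy)
theorem rf_31 (hy : Hy g H) : (([.z, .d, .zi, .d] : List Lt).map g).prod = 1 := hy.2.1 _ (by decide +kernel)
theorem rb_31 (hy : Hy g H) : (([.d, .z, .d, .zi] : List Lt).map g).prod = 1 := inv_at hy.1 (rf_31 hy)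
theorem rf_32 (hy : Hy g H) : (([.z, .c, .zi, .c] : List Lt).map g).prod = 1 := hy.2.1 _ (by decide +kernel)
theorem rb_32 (hy : Hy g H) : (([.c, .z, .c, .zi] : List Lt).map g).prod = 1 := inv_at hy.1 (rf_32 hy)
theorem rf_33 (hy : Hy g H) : (([.z, .b, .zi, .b] : List Lt).map g).prod = 1 := hy.2.1 _ (by decide +kernel)
theorem rb_33 (hy : Hy g H) : (([.b, .z, .b, .zi] : List Lt).map g).prod = 1 := inv_at hy.1 (rf_33 hy)
theorem rf_34 (hy : Hy g H) : (([.z, .a, .zi, .a] : List Lt).map g).prod = 1 := hy.2.1 _ (by decide +kernel)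
theorem rb_34 (hy : Hy g H) : (([.a, .z, .a, .zi] : List Lt).map g).prod = 1 := inv_at hy.1 (rf_34 hy)
theorem rf_35 (hy : Hy g H) : (([.a, .g, .f, .g, .f] : List Lt).map g).prod = 1 := hy.2.1 _ (by decide +kernel)
theorem rb_35 (hy : Hy g H) : (([.f, .g, .f, .g, .a] : List Lt).map g).prod = 1 := inv_at hy.1 (rf_35 hy)
theorem rf_36 (hy : Hy g H) : (([.a, .d, .c, .d, .c, .d, .c, .d, .c] : List Lt).map g).prod = 1 := hy.2.1 _ (by decide +kernel)
theorem rb_36 (hy : Hy g H) : (([.c, .d, .c, .d, .c, .d, .c, .d, .a] : List Lt).map g).prod = 1 := inv_at hy.1 (rf_36 hy)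
theorem rf_37 (hy : Hy g H) : (([.b, .f, .g, .b, .f, .g, .b, .f, .g, .b, .f, .g, .b, .f, .g, .zi] : List Lt).map g).prod = 1 := hy.2.1 _ (by decide +kernel)
theorem rb_37 (hy : Hy g H) : (([.z, .g, .f, .b, .g, .f, .b, .g, .f, .b, .g, .f, .b, .g, .f, .b] : List Lt).map g).prod = 1 := inv_at hy.1 (rf_37 hy)
theorem rf_38 (hy : Hy g H) : (([.a, .b, .c, .f, .a, .b, .c, .f, .a, .b, .c, .f, .a, .b, .c, .f, .a, .b, .c, .f] : List Lt).map g).prod = 1 := hy.2.1 _ (by decide +kernel)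
theorem rb_38 (hy : Hy g H) : (([.f, .c, .b, .a, .f, .c, .b, .a, .f, .c, .b, .a, .f, .c, .b, .a, .f, .c, .b, .a] : List Lt).map g).prod = 1 := inv_at hy.1 (rf_38 hy)
theorem rf_39 (hy : Hy g H) : (([.z, .z, .z, .z, .z, .z, .z, .z, .z, .z, .z, .z, .z, .z, .z, .z, .z, .z, .z, .z, .z, .z, .z, .z, .z, .z, .z, .z, .z, .z, .z, .z, .z, .z, .z, .z, .z, .z, .z, .z, .z, .z, .z, .z, .z] : List Lt).map g).prod = 1 := hy.2.1 _ (by decide +kernel)
theorem rb_39 (hy : Hy g H) : (([.zi, .zi, .zi, .zi, .zi, .zi, .zi, .zi, .zi, .zi, .zi, .zi, .zi, .zi, .zi, .zi, .zi, .zi, .zi, .zi, .zi, .zi, .zi, .zi, .zi, .zi, .zi, .zi, .zi, .zi, .zi, .zi, .zi, .zi, .zi, .zi, .zi, .zi, .zi, .zi, .zi, .zi, .zi, .zi, .zi] : List Lt).map g).prod = 1 := inv_at hy.1 (rf_39 hy)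
theorem rf_40 (hy : Hy g H) : (([.b, .c, .d, .c, .d, .b, .c, .d, .c, .d, .b, .c, .d, .c, .d, .b, .c, .d, .c, .d, .b, .c, .d, .c, .d, .e, .b, .c, .d, .c, .d, .b, .c, .d, .c, .d, .b, .c, .d, .c, .d, .b, .c, .d, .c, .d, .b, .c, .d, .c, .d, .e, .b, .c, .d, .c, .d, .b, .c, .d, .c, .d, .b, .c, .d, .c, .d, .b, .c, .d, .c, .d, .b, .c, .d, .c, .d, .e] : List Lt).map g).prod = 1 := hy.2.1 _ (by decide +kernel)
theorem rb_40 (hy : Hy g H) : (([.e, .d, .c, .d, .c, .b, .d, .c, .d, .c, .b, .d, .c, .d, .c, .b, .d, .c, .d, .c, .b, .d, .c, .d, .c, .b, .e, .d, .c, .d, .c, .b, .d, .c, .d, .c, .b, .d, .c, .d, .c, .b, .d, .c, .d, .c, .b, .d, .c, .d, .c, .b, .e, .d, .c, .d, .c, .b, .d, .c, .d, .c, .b, .d, .c, .d, .c, .b, .d, .c, .d, .c, .b, .d, .c, .d, .c, .b] : List Lt).map g).prod = 1 := inv_at hy.1 (rf_40 hy)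
theorem rf_41 (hy : Hy g H) : (([.z, .zi] : List Lt).map g).prod = 1 := hy.2.1 _ (by decide +kernel)
theorem rb_41 (hy : Hy g H) : (([.z, .zi] : List Lt).map g).prod = 1 := inv_at hy.1 (rf_41 hy)
theorem rf_42 (hy : Hy g H) : (([.zi, .z] : List Lt).map g).prod = 1 := hy.2.1 _ (by decide +kernel)
theorem rb_42 (hy : Hy g H) : (([.zi, .z] : List Lt).map g).prod = 1 := inv_at hy.1 (rf_42 hy)
/-- the points of the nodes -/
noncomputable def cP (g : Lt → G) (H : Subgroup G) : ℕ → G ⧸ H := cc (fa g) lt P ((1 : G) : G ⧸ H)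
/-- soundness of an entry -/
abbrev Gd (g : Lt → G) (H : Subgroup G) (x : Lt) (u : ℕ) : Prop := Good (fa g) T MG M (cP g H) x u
/-- soundness of a merge -/
abbrev GdM (g : Lt → G) (H : Subgroup G) (u : ℕ) : Prop := GoodM (fa g) T MG M (cP g H) u
theorem dp_a_0_s (hy : Hy g H)
    (j u : ℕ) (hu : u < M) (h : dp_a_0 j u = true) : Gd g H Lt.a u := by
  unfold dp_a_0 at h
  rcases brec_true h with h | h
  · exact lF3_good (T := T) (x := Lt.a) hM0 .c .a .c (hat (rf_12 hy) 1 rfl) h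
  · exact lF3_good (T := T) (x := Lt.a) hM0 .g .a .g (hat (rf_7 hy) 1 rfl) h
theorem dp_a_1_s (hy : Hy g H)
    (j u : ℕ) (hu : u < M) (h : dp_a_1 j u = true) : Gd g H Lt.a u := by
  unfold dp_a_1 at h
  rcases brec_true h with h | h
  · exact lS_good (T := T) (x := Lt.a) hM0 hu [Lt.a] (hat (rf_21 hy) 0 rfl) h
  · exact lF_good (T := T) (x := Lt.a) hM0 [Lt.g, Lt.f, Lt.g, Lt.f] (hat (rf_35 hy) 1 rfl) h
theorem dp_a_2_s (hy : Hy g H)
    (j u : ℕ) (hu : u < M) (h : dp_a_2 j u = true) : Gd g H Lt.a u := by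
  unfold dp_a_2 at h
  rcases brec_true h with h | h
  · exact lS_good (T := T) (x := Lt.a) hM0 hu [Lt.d, Lt.a, Lt.d] (hat (rf_11 hy) 1 rfl) h
  · exact lF_good (T := T) (x := Lt.a) hM0 [Lt.b, Lt.a, Lt.b, Lt.a, Lt.b, Lt.a, Lt.b, Lt.a, Lt.b] (hat (rf_19 hy) 1 rfl) h
theorem dp_a_3_s (hy : Hy g H)
    (j u : ℕ) (hu : u < M) (h : dp_a_3 j u = true) : Gd g H Lt.a u := by
  unfold dp_a_3 at h
  rcases brec_true h with h | h
  · exact lF_good (T := T) (x := Lt.a) hM0 [Lt.f, Lt.g, Lt.f, Lt.g] (hat (rb_35 hy) 0 rfl) h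
  · exact dp_a_2_s hy j u hu h
theorem dp_a_4_s (hy : Hy g H)
    (j u : ℕ) (hu : u < M) (h : dp_a_4 j u = true) : Gd g H Lt.a u := by
  unfold dp_a_4 at h
  rcases brec_true h with h | h
  · exact lS_good (T := T) (x := Lt.a) hM0 hu [Lt.c, Lt.a, Lt.c] (hat (rf_12 hy) 1 rfl) h
  · exact lS_good (T := T) (x := Lt.a) hM0 hu [Lt.z, Lt.a, Lt.zi] (hat (rf_34 hy) 0 rfl) h
theorem dp_a_5_s (hy : Hy g H)
    (j u : ℕ) (hu : u < M) (h : dp_a_5 j u = true) : Gd g H Lt.a u := by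
  unfold dp_a_5 at h
  rcases brec_true h with h | h
  · exact lS_good (T := T) (x := Lt.a) hM0 hu [Lt.zi, Lt.a, Lt.z] (hat (rf_34 hy) 2 rfl) h
  · exact dp_a_4_s hy j u hu h
theorem dp_a_6_s (hy : Hy g H)
    (j u : ℕ) (hu : u < M) (h : dp_a_6 j u = true) : Gd g H Lt.a u := by
  unfold dp_a_6 at h
  rcases brec_true h with h | h
  · exact lS_good (T := T) (x := Lt.a) hM0 hu [Lt.e, Lt.a, Lt.e] (hat (rf_10 hy) 1 rfl) h
  · exact lF_good (T := T) (x := Lt.a) hM0 [Lt.d, Lt.c, Lt.d, Lt.c, Lt.d, Lt.c, Lt.d, Lt.c] (hat (rf_36 hy) 1 rfl) h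
theorem dp_a_7_s (hy : Hy g H)
    (j u : ℕ) (hu : u < M) (h : dp_a_7 j u = true) : Gd g H Lt.a u := by
  unfold dp_a_7 at h
  rcases brec_true h with h | h
  · exact lS_good (T := T) (x := Lt.a) hM0 hu [Lt.g, Lt.a, Lt.g] (hat (rf_7 hy) 1 rfl) h
  · exact lF_good (T := T) (x := Lt.a) hM0 [Lt.c, Lt.d, Lt.c, Lt.d, Lt.c, Lt.d, Lt.c, Lt.d] (hat (rb_36 hy) 0 rfl) h
theorem dp_a_8_s (hy : Hy g H)
    (j u : ℕ) (hu : u < M) (h : dp_a_8 j u = true) : Gd g H Lt.a u := by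
  unfold dp_a_8 at h
  rcases brec_true h with h | h
  · exact lS_good (T := T) (x := Lt.a) hM0 hu [Lt.f, Lt.a, Lt.f] (hat (rf_9 hy) 1 rfl) h
  · exact lH_good (T := T) (x := Lt.a) hM0 [] [] (by rw [show cP g H 0 = _ from cc_zero]; exact sub_rel hy.1 (hy.2.2 _ (by decide))) h
theorem dp_a_9_s (hy : Hy g H)
    (j u : ℕ) (hu : u < M) (h : dp_a_9 j u = true) : Gd g H Lt.a u := by
  unfold dp_a_9 at h
  rcases brec_true h with h | h
  · exact lS_good (T := T) (x := Lt.a) hM0 hu [Lt.d, Lt.c, Lt.d, Lt.c, Lt.d, Lt.c, Lt.d, Lt.c] (hat (rf_36 hy) 1 rfl) h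
  · exact lS_good (T := T) (x := Lt.a) hM0 hu [Lt.c, Lt.d, Lt.c, Lt.d, Lt.c, Lt.d, Lt.c, Lt.d] (hat (rb_36 hy) 0 rfl) h
theorem dp_a_10_s (hy : Hy g H)
    (j u : ℕ) (hu : u < M) (h : dp_a_10 j u = true) : Gd g H Lt.a u := by
  unfold dp_a_10 at h
  rcases brec_true h with h | h
  · exact lF_good (T := T) (x := Lt.a) hM0 [Lt.b, Lt.c, Lt.f, Lt.a, Lt.b, Lt.c, Lt.f, Lt.a, Lt.b, Lt.c, Lt.f, Lt.a, Lt.b, Lt.c, Lt.f, Lt.a, Lt.b, Lt.c, Lt.f] (hat (rf_38 hy) 1 rfl) h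
  · exact lF_good (T := T) (x := Lt.a) hM0 [Lt.f, Lt.c, Lt.b, Lt.a, Lt.f, Lt.c, Lt.b, Lt.a, Lt.f, Lt.c, Lt.b, Lt.a, Lt.f, Lt.c, Lt.b, Lt.a, Lt.f, Lt.c, Lt.b] (hat (rb_38 hy) 0 rfl) h
theorem dp_a_11_s (hy : Hy g H)
    (j u : ℕ) (hu : u < M) (h : dp_a_11 j u = true) : Gd g H Lt.a u := by
  unfold dp_a_11 at h
  rcases brec_true h with h | h
  · exact lS_good (T := T) (x := Lt.a) hM0 hu [Lt.b, Lt.a, Lt.b, Lt.a, Lt.b, Lt.a, Lt.b, Lt.a, Lt.b] (hat (rf_19 hy) 1 rfl) h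
  · exact dp_a_10_s hy j u hu h
theorem dp_a_12_s (hy : Hy g H)
    (j u : ℕ) (hu : u < M) (h : dp_a_12 j u = true) : Gd g H Lt.a u := by
  unfold dp_a_12 at h
  rcases brec_true h with h | h
  · exact dp_a_9_s hy j u hu h
  · exact dp_a_11_s hy j u hu h
theorem dp_a_13_s (hy : Hy g H)
    (j u : ℕ) (hu : u < M) (h : dp_a_13 j u = true) : Gd g H Lt.a u := by
  unfold dp_a_13 at h
  rcases brec_true h with h | h
  · exact dp_a_8_s hy j u hu h
  · exact dp_a_12_s hy j u hu h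
theorem dp_a_14_s (hy : Hy g H)
    (j u : ℕ) (hu : u < M) (h : dp_a_14 j u = true) : Gd g H Lt.a u := by
  unfold dp_a_14 at h
  rcases brec_true h with h | h
  · exact dp_a_7_s hy j u hu h
  · exact dp_a_13_s hy j u hu h
theorem dp_a_15_s (hy : Hy g H)
    (j u : ℕ) (hu : u < M) (h : dp_a_15 j u = true) : Gd g H Lt.a u := by
  unfold dp_a_15 at h
  rcases brec_true h with h | h
  · exact dp_a_6_s hy j u hu h
  · exact dp_a_14_s hy j u hu h
theorem dp_a_16_s (hy : Hy g H)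
    (j u : ℕ) (hu : u < M) (h : dp_a_16 j u = true) : Gd g H Lt.a u := by
  unfold dp_a_16 at h
  rcases brec_true h with h | h
  · exact dp_a_5_s hy j u hu h
  · exact dp_a_15_s hy j u hu h
theorem dp_a_17_s (hy : Hy g H)
    (j u : ℕ) (hu : u < M) (h : dp_a_17 j u = true) : Gd g H Lt.a u := by
  unfold dp_a_17 at h
  rcases brec_true h with h | h
  · exact dp_a_3_s hy j u hu h
  · exact dp_a_16_s hy j u hu h
theorem dp_a_18_s (hy : Hy g H)
    (j u : ℕ) (hu : u < M) (h : dp_a_18 j u = true) : Gd g H Lt.a u := by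
  unfold dp_a_18 at h
  rcases brec_true h with h | h
  · exact dp_a_1_s hy j u hu h
  · exact dp_a_17_s hy j u hu h
theorem dp_a_19_s (hy : Hy g H)
    (j u : ℕ) (hu : u < M) (h : dp_a_19 j u = true) : Gd g H Lt.a u := by
  unfold dp_a_19 at h
  rcases brec_true h with h | h
  · exact lF3_good (T := T) (x := Lt.a) hM0 .e .a .e (hat (rf_10 hy) 1 rfl) h
  · exact dp_a_18_s hy j u hu h
theorem dp_a_20_s (hy : Hy g H)
    (j u : ℕ) (hu : u < M) (h : dp_a_20 j u = true) : Gd g H Lt.a u := by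
  unfold dp_a_20 at h
  rcases brec_true h with h | h
  · exact lF3_good (T := T) (x := Lt.a) hM0 .d .a .d (hat (rf_11 hy) 1 rfl) h
  · exact dp_a_19_s hy j u hu h
theorem dp_a_21_s (hy : Hy g H)
    (j u : ℕ) (hu : u < M) (h : dp_a_21 j u = true) : Gd g H Lt.a u := by
  unfold dp_a_21 at h
  rcases brec_true h with h | h
  · exact dp_a_0_s hy j u hu h
  · exact dp_a_20_s hy j u hu h
theorem dp_a_22_s (hy : Hy g H)
    (j u : ℕ) (hu : u < M) (h : dp_a_22 j u = true) : Gd g H Lt.a u := by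
  unfold dp_a_22 at h
  rcases brec_true h with h | h
  · rcases brec_true h with h | h
    · exact lPar_good (T := T) (x := Lt.a) (x' := Lt.a) (by decide) rfl (ivt hy _ _ rfl) h
    · rcases brec_true h with h | h
      · exact lF3_good (T := T) (x := Lt.a) hM0 .zi .a .z (hat (rf_34 hy) 2 rfl) h
      · exact lF3_good (T := T) (x := Lt.a) hM0 .f .a .f (hat (rf_9 hy) 1 rfl) h
  · exact dp_a_21_s hy j u hu h
theorem snd_a (hy : Hy g H)
    (j u : ℕ) (hu : u < M) (h : disp_a j u = true) : Gd g H Lt.a u := by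
  unfold disp_a at h
  rcases brec_true h with h | h
  · rcases brec_true h with h | h
    · exact lF1_good (T := T) (x := Lt.a) hM0 .a (hat (rf_21 hy) 0 rfl) h
    · rcases brec_true h with h | h
      · exact lF3_good (T := T) (x := Lt.a) hM0 .z .a .zi (hat (rf_34 hy) 0 rfl) h
      · exact lDef_good (T := T) (x := Lt.a) (by decide) rfl h
  · exact dp_a_22_s hy j u hu h
theorem snc_a (hy : Hy g H)
    (j u : ℕ) (hu : u < M) (h : chk_a j u = true) : (T Lt.a u < A ∧ Gd g H Lt.a u) ∨ (A ≤ T Lt.a u ∧ MG u < A) := by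
  unfold chk_a at h
  cases hb : Nat.ble A (T_a u) with
  | true => rw [hb] at h; exact Or.inr ⟨le_of_ble hb, le_of_ble h⟩
  | false => rw [hb] at h; exact Or.inl ⟨lt_of_ble_false hb, snd_a hy j u hu h⟩
theorem dp_b_0_s (hy : Hy g H)
    (j u : ℕ) (hu : u < M) (h : dp_b_0 j u = true) : Gd g H Lt.b u := by
  unfold dp_b_0 at h
  rcases brec_true h with h | h
  · exact lF3_good (T := T) (x := Lt.b) hM0 .e .b .e (hat (rf_13 hy) 1 rfl) h
  · exact lF_good (T := T) (x := Lt.b) hM0 [Lt.c, Lt.b, Lt.c, Lt.b, Lt.c] (hat (rf_17 hy) 1 rfl) h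
theorem dp_b_1_s (hy : Hy g H)
    (j u : ℕ) (hu : u < M) (h : dp_b_1 j u = true) : Gd g H Lt.b u := by
  unfold dp_b_1 at h
  rcases brec_true h with h | h
  · exact lS_good (T := T) (x := Lt.b) hM0 hu [Lt.b] (hat (rf_22 hy) 0 rfl) h
  · exact lF_good (T := T) (x := Lt.b) hM0 [Lt.g, Lt.b, Lt.g, Lt.b, Lt.g] (hat (rf_15 hy) 1 rfl) h
theorem dp_b_2_s (hy : Hy g H)
    (j u : ℕ) (hu : u < M) (h : dp_b_2 j u = true) : Gd g H Lt.b u := by
  unfold dp_b_2 at h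
  rcases brec_true h with h | h
  · exact lF_good (T := T) (x := Lt.b) hM0 [Lt.a, Lt.b, Lt.a, Lt.b, Lt.a, Lt.b, Lt.a, Lt.b, Lt.a] (hat (rf_19 hy) 0 rfl) h
  · exact lS_good (T := T) (x := Lt.b) hM0 hu [Lt.z, Lt.b, Lt.zi] (hat (rf_33 hy) 0 rfl) h
theorem dp_b_3_s (hy : Hy g H)
    (j u : ℕ) (hu : u < M) (h : dp_b_3 j u = true) : Gd g H Lt.b u := by
  unfold dp_b_3 at h
  rcases brec_true h with h | h
  · exact lS_good (T := T) (x := Lt.b) hM0 hu [Lt.d, Lt.b, Lt.d] (hat (rf_8 hy) 1 rfl) h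
  · exact lS_good (T := T) (x := Lt.b) hM0 hu [Lt.zi, Lt.b, Lt.z] (hat (rf_33 hy) 2 rfl) h
theorem dp_b_4_s (hy : Hy g H)
    (j u : ℕ) (hu : u < M) (h : dp_b_4 j u = true) : Gd g H Lt.b u := by
  unfold dp_b_4 at h
  rcases brec_true h with h | h
  · exact lS_good (T := T) (x := Lt.b) hM0 hu [Lt.e, Lt.b, Lt.e] (hat (rf_13 hy) 1 rfl) h
  · exact lF_good (T := T) (x := Lt.b) hM0 [Lt.g, Lt.f, Lt.b, Lt.g, Lt.f, Lt.b, Lt.g, Lt.f, Lt.b, Lt.g, Lt.f, Lt.b, Lt.z, Lt.g, Lt.f] (hat (rb_37 hy) 4 rfl) h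
theorem dp_b_5_s (hy : Hy g H)
    (j u : ℕ) (hu : u < M) (h : dp_b_5 j u = true) : Gd g H Lt.b u := by
  unfold dp_b_5 at h
  rcases brec_true h with h | h
  · exact lF_good (T := T) (x := Lt.b) hM0 [Lt.f, Lt.g, Lt.b, Lt.f, Lt.g, Lt.b, Lt.f, Lt.g, Lt.b, Lt.f, Lt.g, Lt.b, Lt.f, Lt.g, Lt.zi] (hat (rf_37 hy) 1 rfl) h
  · exact lS_good (T := T) (x := Lt.b) hM0 hu [Lt.a, Lt.b, Lt.a, Lt.b, Lt.a, Lt.b, Lt.a, Lt.b, Lt.a] (hat (rf_19 hy) 0 rfl) h
theorem dp_b_6_s (hy : Hy g H)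
    (j u : ℕ) (hu : u < M) (h : dp_b_6 j u = true) : Gd g H Lt.b u := by
  unfold dp_b_6 at h
  rcases brec_true h with h | h
  · exact lH_good (T := T) (x := Lt.b) hM0 [] [] (by rw [show cP g H 0 = _ from cc_zero]; exact sub_rel hy.1 (hy.2.2 _ (by decide))) h
  · exact lF_good (T := T) (x := Lt.b) hM0 [Lt.c, Lt.f, Lt.a, Lt.b, Lt.c, Lt.f, Lt.a, Lt.b, Lt.c, Lt.f, Lt.a, Lt.b, Lt.c, Lt.f, Lt.a, Lt.b, Lt.c, Lt.f, Lt.a] (hat (rf_38 hy) 2 rfl) h
theorem dp_b_7_s (hy : Hy g H)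
    (j u : ℕ) (hu : u < M) (h : dp_b_7 j u = true) : Gd g H Lt.b u := by
  unfold dp_b_7 at h
  rcases brec_true h with h | h
  · exact lF_good (T := T) (x := Lt.b) hM0 [Lt.f, Lt.g, Lt.b, Lt.f, Lt.g, Lt.b, Lt.f, Lt.g, Lt.b, Lt.f, Lt.g, Lt.zi, Lt.b, Lt.f, Lt.g] (hat (rf_37 hy) 4 rfl) h
  · exact lS_good (T := T) (x := Lt.b) hM0 hu [Lt.f, Lt.b, Lt.f, Lt.b, Lt.f] (hat (rf_14 hy) 1 rfl) h
theorem dp_b_8_s (hy : Hy g H)
    (j u : ℕ) (hu : u < M) (h : dp_b_8 j u = true) : Gd g H Lt.b u := by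
  unfold dp_b_8 at h
  rcases brec_true h with h | h
  · exact dp_b_6_s hy j u hu h
  · exact dp_b_7_s hy j u hu h
theorem dp_b_9_s (hy : Hy g H)
    (j u : ℕ) (hu : u < M) (h : dp_b_9 j u = true) : Gd g H Lt.b u := by
  unfold dp_b_9 at h
  rcases brec_true h with h | h
  · exact lF_good (T := T) (x := Lt.b) hM0 [Lt.f, Lt.g, Lt.b, Lt.f, Lt.g, Lt.zi, Lt.b, Lt.f, Lt.g, Lt.b, Lt.f, Lt.g, Lt.b, Lt.f, Lt.g] (hat (rf_37 hy) 10 rfl) h
  · exact lF_good (T := T) (x := Lt.b) hM0 [Lt.f, Lt.g, Lt.b, Lt.f, Lt.g, Lt.b, Lt.f, Lt.g, Lt.zi, Lt.b, Lt.f, Lt.g, Lt.b, Lt.f, Lt.g] (hat (rf_37 hy) 7 rfl) h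
theorem dp_b_10_s (hy : Hy g H)
    (j u : ℕ) (hu : u < M) (h : dp_b_10 j u = true) : Gd g H Lt.b u := by
  unfold dp_b_10 at h
  rcases brec_true h with h | h
  · exact lS_good (T := T) (x := Lt.b) hM0 hu [Lt.f, Lt.g, Lt.b, Lt.f, Lt.g, Lt.b, Lt.f, Lt.g, Lt.b, Lt.f, Lt.g, Lt.b, Lt.f, Lt.g, Lt.zi] (hat (rf_37 hy) 1 rfl) h
  · exact lS_good (T := T) (x := Lt.b) hM0 hu [Lt.g, Lt.b, Lt.g, Lt.b, Lt.g] (hat (rf_15 hy) 1 rfl) h
theorem dp_b_11_s (hy : Hy g H)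
    (j u : ℕ) (hu : u < M) (h : dp_b_11 j u = true) : Gd g H Lt.b u := by
  unfold dp_b_11 at h
  rcases brec_true h with h | h
  · exact lF_good (T := T) (x := Lt.b) hM0 [Lt.a, Lt.f, Lt.c, Lt.b, Lt.a, Lt.f, Lt.c, Lt.b, Lt.a, Lt.f, Lt.c, Lt.b, Lt.a, Lt.f, Lt.c, Lt.b, Lt.a, Lt.f, Lt.c] (hat (rb_38 hy) 3 rfl) h
  · exact dp_b_10_s hy j u hu h
theorem dp_b_12_s (hy : Hy g H)
    (j u : ℕ) (hu : u < M) (h : dp_b_12 j u = true) : Gd g H Lt.b u := by
  unfold dp_b_12 at h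
  rcases brec_true h with h | h
  · exact dp_b_9_s hy j u hu h
  · exact dp_b_11_s hy j u hu h
theorem dp_b_13_s (hy : Hy g H)
    (j u : ℕ) (hu : u < M) (h : dp_b_13 j u = true) : Gd g H Lt.b u := by
  unfold dp_b_13 at h
  rcases brec_true h with h | h
  · exact dp_b_8_s hy j u hu h
  · exact dp_b_12_s hy j u hu h
theorem dp_b_14_s (hy : Hy g H)
    (j u : ℕ) (hu : u < M) (h : dp_b_14 j u = true) : Gd g H Lt.b u := by
  unfold dp_b_14 at h
  rcases brec_true h with h | h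
  · exact dp_b_5_s hy j u hu h
  · exact dp_b_13_s hy j u hu h
theorem dp_b_15_s (hy : Hy g H)
    (j u : ℕ) (hu : u < M) (h : dp_b_15 j u = true) : Gd g H Lt.b u := by
  unfold dp_b_15 at h
  rcases brec_true h with h | h
  · exact dp_b_4_s hy j u hu h
  · exact dp_b_14_s hy j u hu h
theorem dp_b_16_s (hy : Hy g H)
    (j u : ℕ) (hu : u < M) (h : dp_b_16 j u = true) : Gd g H Lt.b u := by
  unfold dp_b_16 at h
  rcases brec_true h with h | h
  · exact dp_b_3_s hy j u hu h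
  · exact dp_b_15_s hy j u hu h
theorem dp_b_17_s (hy : Hy g H)
    (j u : ℕ) (hu : u < M) (h : dp_b_17 j u = true) : Gd g H Lt.b u := by
  unfold dp_b_17 at h
  rcases brec_true h with h | h
  · exact dp_b_2_s hy j u hu h
  · exact dp_b_16_s hy j u hu h
theorem dp_b_18_s (hy : Hy g H)
    (j u : ℕ) (hu : u < M) (h : dp_b_18 j u = true) : Gd g H Lt.b u := by
  unfold dp_b_18 at h
  rcases brec_true h with h | h
  · exact lF_good (T := T) (x := Lt.b) hM0 [Lt.f, Lt.b, Lt.f, Lt.b, Lt.f] (hat (rf_14 hy) 1 rfl) h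
  · exact dp_b_17_s hy j u hu h
theorem dp_b_19_s (hy : Hy g H)
    (j u : ℕ) (hu : u < M) (h : dp_b_19 j u = true) : Gd g H Lt.b u := by
  unfold dp_b_19 at h
  rcases brec_true h with h | h
  · exact dp_b_1_s hy j u hu h
  · exact dp_b_18_s hy j u hu h
theorem dp_b_20_s (hy : Hy g H)
    (j u : ℕ) (hu : u < M) (h : dp_b_20 j u = true) : Gd g H Lt.b u := by
  unfold dp_b_20 at h
  rcases brec_true h with h | h
  · exact dp_b_0_s hy j u hu h
  · exact dp_b_19_s hy j u hu h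
theorem dp_b_21_s (hy : Hy g H)
    (j u : ℕ) (hu : u < M) (h : dp_b_21 j u = true) : Gd g H Lt.b u := by
  unfold dp_b_21 at h
  rcases brec_true h with h | h
  · rcases brec_true h with h | h
    · exact lF3_good (T := T) (x := Lt.b) hM0 .zi .b .z (hat (rf_33 hy) 2 rfl) h
    · exact lF3_good (T := T) (x := Lt.b) hM0 .d .b .d (hat (rf_8 hy) 1 rfl) h
  · exact dp_b_20_s hy j u hu h
theorem snd_b (hy : Hy g H)
    (j u : ℕ) (hu : u < M) (h : disp_b j u = true) : Gd g H Lt.b u := by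
  unfold disp_b at h
  rcases brec_true h with h | h
  · rcases brec_true h with h | h
    · exact lF1_good (T := T) (x := Lt.b) hM0 .b (hat (rf_22 hy) 0 rfl) h
    · exact lDef_good (T := T) (x := Lt.b) (by decide) rfl h
  · rcases brec_true h with h | h
    · rcases brec_true h with h | h
      · exact lPar_good (T := T) (x := Lt.b) (x' := Lt.b) (by decide) rfl (ivt hy _ _ rfl) h
      · exact lF3_good (T := T) (x := Lt.b) hM0 .z .b .zi (hat (rf_33 hy) 0 rfl) h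
    · exact dp_b_21_s hy j u hu h
theorem snc_b (hy : Hy g H)
    (j u : ℕ) (hu : u < M) (h : chk_b j u = true) : (T Lt.b u < A ∧ Gd g H Lt.b u) ∨ (A ≤ T Lt.b u ∧ MG u < A) := by
  unfold chk_b at h
  cases hb : Nat.ble A (T_b u) with
  | true => rw [hb] at h; exact Or.inr ⟨le_of_ble hb, le_of_ble h⟩
  | false => rw [hb] at h; exact Or.inl ⟨lt_of_ble_false hb, snd_b hy j u hu h⟩
theorem dp_c_0_s (hy : Hy g H)
    (j u : ℕ) (hu : u < M) (h : dp_c_0 j u = true) : Gd g H Lt.c u := by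
  unfold dp_c_0 at h
  rcases brec_true h with h | h
  · exact lF3_good (T := T) (x := Lt.c) hM0 .a .c .a (hat (rf_12 hy) 0 rfl) h
  · exact lF3_good (T := T) (x := Lt.c) hM0 .e .c .e (hat (rf_6 hy) 1 rfl) h
theorem dp_c_1_s (hy : Hy g H)
    (j u : ℕ) (hu : u < M) (h : dp_c_1 j u = true) : Gd g H Lt.c u := by
  unfold dp_c_1 at h
  rcases brec_true h with h | h
  · exact lS_good (T := T) (x := Lt.c) hM0 hu [Lt.z, Lt.c, Lt.zi] (hat (rf_32 hy) 0 rfl) h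
  · exact lS_good (T := T) (x := Lt.c) hM0 hu [Lt.zi, Lt.c, Lt.z] (hat (rf_32 hy) 2 rfl) h
theorem dp_c_2_s (hy : Hy g H)
    (j u : ℕ) (hu : u < M) (h : dp_c_2 j u = true) : Gd g H Lt.c u := by
  unfold dp_c_2 at h
  rcases brec_true h with h | h
  · exact lF_good (T := T) (x := Lt.c) hM0 [Lt.d, Lt.c, Lt.d, Lt.c, Lt.a, Lt.d, Lt.c, Lt.d] (hat (rf_36 hy) 5 rfl) h
  · exact dp_c_1_s hy j u hu h
theorem dp_c_3_s (hy : Hy g H)
    (j u : ℕ) (hu : u < M) (h : dp_c_3 j u = true) : Gd g H Lt.c u := by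
  unfold dp_c_3 at h
  rcases brec_true h with h | h
  · exact lF_good (T := T) (x := Lt.c) hM0 [Lt.d, Lt.c, Lt.d, Lt.c, Lt.d, Lt.c, Lt.a, Lt.d] (hat (rf_36 hy) 3 rfl) h
  · exact lS_good (T := T) (x := Lt.c) hM0 hu [Lt.g, Lt.c, Lt.g] (hat (rf_4 hy) 1 rfl) h
theorem dp_c_4_s (hy : Hy g H)
    (j u : ℕ) (hu : u < M) (h : dp_c_4 j u = true) : Gd g H Lt.c u := by
  unfold dp_c_4 at h
  rcases brec_true h with h | h
  · exact lS_good (T := T) (x := Lt.c) hM0 hu [Lt.f, Lt.c, Lt.f] (hat (rf_5 hy) 1 rfl) h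
  · exact dp_c_3_s hy j u hu h
theorem dp_c_5_s (hy : Hy g H)
    (j u : ℕ) (hu : u < M) (h : dp_c_5 j u = true) : Gd g H Lt.c u := by
  unfold dp_c_5 at h
  rcases brec_true h with h | h
  · exact lS_good (T := T) (x := Lt.c) hM0 hu [Lt.a, Lt.c, Lt.a] (hat (rf_12 hy) 0 rfl) h
  · exact lF_good (T := T) (x := Lt.c) hM0 [Lt.d, Lt.c, Lt.a, Lt.d, Lt.c, Lt.d, Lt.c, Lt.d] (hat (rf_36 hy) 7 rfl) h
theorem dp_c_6_s (hy : Hy g H)
    (j u : ℕ) (hu : u < M) (h : dp_c_6 j u = true) : Gd g H Lt.c u := by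
  unfold dp_c_6 at h
  rcases brec_true h with h | h
  · exact lS_good (T := T) (x := Lt.c) hM0 hu [Lt.b, Lt.c, Lt.b, Lt.c, Lt.b] (hat (rf_17 hy) 0 rfl) h
  · exact lS_good (T := T) (x := Lt.c) hM0 hu [Lt.e, Lt.c, Lt.e] (hat (rf_6 hy) 1 rfl) h
theorem dp_c_7_s (hy : Hy g H)
    (j u : ℕ) (hu : u < M) (h : dp_c_7 j u = true) : Gd g H Lt.c u := by
  unfold dp_c_7 at h
  rcases brec_true h with h | h
  · exact lH_good (T := T) (x := Lt.c) hM0 [] [] (by rw [show cP g H 0 = _ from cc_zero]; exact sub_rel hy.1 (hy.2.2 _ (by decide))) h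
  · exact lF_good (T := T) (x := Lt.c) hM0 [Lt.a, Lt.d, Lt.c, Lt.d, Lt.c, Lt.d, Lt.c, Lt.d] (hat (rf_36 hy) 0 rfl) h
theorem dp_c_8_s (hy : Hy g H)
    (j u : ℕ) (hu : u < M) (h : dp_c_8 j u = true) : Gd g H Lt.c u := by
  unfold dp_c_8 at h
  rcases brec_true h with h | h
  · exact lF_good (T := T) (x := Lt.c) hM0 [Lt.f, Lt.a, Lt.b, Lt.c, Lt.f, Lt.a, Lt.b, Lt.c, Lt.f, Lt.a, Lt.b, Lt.c, Lt.f, Lt.a, Lt.b, Lt.c, Lt.f, Lt.a, Lt.b] (hat (rf_38 hy) 3 rfl) h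
  · exact dp_c_7_s hy j u hu h
theorem dp_c_9_s (hy : Hy g H)
    (j u : ℕ) (hu : u < M) (h : dp_c_9 j u = true) : Gd g H Lt.c u := by
  unfold dp_c_9 at h
  rcases brec_true h with h | h
  · exact lF_good (T := T) (x := Lt.c) hM0 [Lt.b, Lt.a, Lt.f, Lt.c, Lt.b, Lt.a, Lt.f, Lt.c, Lt.b, Lt.a, Lt.f, Lt.c, Lt.b, Lt.a, Lt.f, Lt.c, Lt.b, Lt.a, Lt.f] (hat (rb_38 hy) 2 rfl) h
  · exact lS_good (T := T) (x := Lt.c) hM0 hu [Lt.d, Lt.c, Lt.d, Lt.c, Lt.d, Lt.c, Lt.a, Lt.d] (hat (rf_36 hy) 3 rfl) h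
theorem dp_c_10_s (hy : Hy g H)
    (j u : ℕ) (hu : u < M) (h : dp_c_10 j u = true) : Gd g H Lt.c u := by
  unfold dp_c_10 at h
  rcases brec_true h with h | h
  · exact lF_good (T := T) (x := Lt.c) hM0 [Lt.d, Lt.c, Lt.d, Lt.a, Lt.c, Lt.d, Lt.c, Lt.d] (hat (rb_36 hy) 5 rfl) h
  · exact lF_good (T := T) (x := Lt.c) hM0 [Lt.d, Lt.c, Lt.d, Lt.c, Lt.d, Lt.c, Lt.d, Lt.a] (hat (rb_36 hy) 1 rfl) h
theorem dp_c_11_s (hy : Hy g H)
    (j u : ℕ) (hu : u < M) (h : dp_c_11 j u = true) : Gd g H Lt.c u := by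
  unfold dp_c_11 at h
  rcases brec_true h with h | h
  · exact lS_good (T := T) (x := Lt.c) hM0 hu [Lt.d, Lt.c, Lt.a, Lt.d, Lt.c, Lt.d, Lt.c, Lt.d] (hat (rf_36 hy) 7 rfl) h
  · exact dp_c_10_s hy j u hu h
theorem dp_c_12_s (hy : Hy g H)
    (j u : ℕ) (hu : u < M) (h : dp_c_12 j u = true) : Gd g H Lt.c u := by
  unfold dp_c_12 at h
  rcases brec_true h with h | h
  · exact dp_c_9_s hy j u hu h
  · exact dp_c_11_s hy j u hu h
theorem dp_c_13_s (hy : Hy g H)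
    (j u : ℕ) (hu : u < M) (h : dp_c_13 j u = true) : Gd g H Lt.c u := by
  unfold dp_c_13 at h
  rcases brec_true h with h | h
  · exact dp_c_8_s hy j u hu h
  · exact dp_c_12_s hy j u hu h
theorem dp_c_14_s (hy : Hy g H)
    (j u : ℕ) (hu : u < M) (h : dp_c_14 j u = true) : Gd g H Lt.c u := by
  unfold dp_c_14 at h
  rcases brec_true h with h | h
  · exact dp_c_6_s hy j u hu h
  · exact dp_c_13_s hy j u hu h
theorem dp_c_15_s (hy : Hy g H)
    (j u : ℕ) (hu : u < M) (h : dp_c_15 j u = true) : Gd g H Lt.c u := by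
  unfold dp_c_15 at h
  rcases brec_true h with h | h
  · exact dp_c_5_s hy j u hu h
  · exact dp_c_14_s hy j u hu h
theorem dp_c_16_s (hy : Hy g H)
    (j u : ℕ) (hu : u < M) (h : dp_c_16 j u = true) : Gd g H Lt.c u := by
  unfold dp_c_16 at h
  rcases brec_true h with h | h
  · exact dp_c_4_s hy j u hu h
  · exact dp_c_15_s hy j u hu h
theorem dp_c_17_s (hy : Hy g H)
    (j u : ℕ) (hu : u < M) (h : dp_c_17 j u = true) : Gd g H Lt.c u := by
  unfold dp_c_17 at h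
  rcases brec_true h with h | h
  · exact dp_c_2_s hy j u hu h
  · exact dp_c_16_s hy j u hu h
theorem dp_c_18_s (hy : Hy g H)
    (j u : ℕ) (hu : u < M) (h : dp_c_18 j u = true) : Gd g H Lt.c u := by
  unfold dp_c_18 at h
  rcases brec_true h with h | h
  · exact lS_good (T := T) (x := Lt.c) hM0 hu [Lt.c] (hat (rf_23 hy) 0 rfl) h
  · exact dp_c_17_s hy j u hu h
theorem dp_c_19_s (hy : Hy g H)
    (j u : ℕ) (hu : u < M) (h : dp_c_19 j u = true) : Gd g H Lt.c u := by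
  unfold dp_c_19 at h
  rcases brec_true h with h | h
  · exact lF_good (T := T) (x := Lt.c) hM0 [Lt.b, Lt.c, Lt.b, Lt.c, Lt.b] (hat (rf_17 hy) 0 rfl) h
  · exact dp_c_18_s hy j u hu h
theorem dp_c_20_s (hy : Hy g H)
    (j u : ℕ) (hu : u < M) (h : dp_c_20 j u = true) : Gd g H Lt.c u := by
  unfold dp_c_20 at h
  rcases brec_true h with h | h
  · exact dp_c_0_s hy j u hu h
  · exact dp_c_19_s hy j u hu h
theorem dp_c_21_s (hy : Hy g H)
    (j u : ℕ) (hu : u < M) (h : dp_c_21 j u = true) : Gd g H Lt.c u := by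
  unfold dp_c_21 at h
  rcases brec_true h with h | h
  · rcases brec_true h with h | h
    · exact lF3_good (T := T) (x := Lt.c) hM0 .g .c .g (hat (rf_4 hy) 1 rfl) h
    · exact lF3_good (T := T) (x := Lt.c) hM0 .f .c .f (hat (rf_5 hy) 1 rfl) h
  · exact dp_c_20_s hy j u hu h
theorem snd_c (hy : Hy g H)
    (j u : ℕ) (hu : u < M) (h : disp_c j u = true) : Gd g H Lt.c u := by
  unfold disp_c at h
  rcases brec_true h with h | h
  · rcases brec_true h with h | h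
    · exact lF1_good (T := T) (x := Lt.c) hM0 .c (hat (rf_23 hy) 0 rfl) h
    · exact lDef_good (T := T) (x := Lt.c) (by decide) rfl h
  · rcases brec_true h with h | h
    · rcases brec_true h with h | h
      · exact lPar_good (T := T) (x := Lt.c) (x' := Lt.c) (by decide) rfl (ivt hy _ _ rfl) h
      · rcases brec_true h with h | h
        · exact lF3_good (T := T) (x := Lt.c) hM0 .z .c .zi (hat (rf_32 hy) 0 rfl) h
        · exact lF3_good (T := T) (x := Lt.c) hM0 .zi .c .z (hat (rf_32 hy) 2 rfl) h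
    · exact dp_c_21_s hy j u hu h
theorem snc_c (hy : Hy g H)
    (j u : ℕ) (hu : u < M) (h : chk_c j u = true) : (T Lt.c u < A ∧ Gd g H Lt.c u) ∨ (A ≤ T Lt.c u ∧ MG u < A) := by
  unfold chk_c at h
  cases hb : Nat.ble A (T_c u) with
  | true => rw [hb] at h; exact Or.inr ⟨le_of_ble hb, le_of_ble h⟩
  | false => rw [hb] at h; exact Or.inl ⟨lt_of_ble_false hb, snd_c hy j u hu h⟩
theorem dp_d_0_s (hy : Hy g H)
    (j u : ℕ) (hu : u < M) (h : dp_d_0 j u = true) : Gd g H Lt.d u := by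
  unfold dp_d_0 at h
  rcases brec_true h with h | h
  · exact lF_good (T := T) (x := Lt.d) hM0 [Lt.c, Lt.d, Lt.c, Lt.d, Lt.a, Lt.c, Lt.d, Lt.c] (hat (rb_36 hy) 4 rfl) h
  · exact lF_good (T := T) (x := Lt.d) hM0 [Lt.e, Lt.d, Lt.e, Lt.d, Lt.e] (hat (rf_16 hy) 1 rfl) h
theorem dp_d_1_s (hy : Hy g H)
    (j u : ℕ) (hu : u < M) (h : dp_d_1 j u = true) : Gd g H Lt.d u := by
  unfold dp_d_1 at h
  rcases brec_true h with h | h
  · exact lS_good (T := T) (x := Lt.d) hM0 hu [Lt.b, Lt.d, Lt.b] (hat (rf_8 hy) 0 rfl) h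
  · exact lS_good (T := T) (x := Lt.d) hM0 hu [Lt.z, Lt.d, Lt.zi] (hat (rf_31 hy) 0 rfl) h
theorem dp_d_2_s (hy : Hy g H)
    (j u : ℕ) (hu : u < M) (h : dp_d_2 j u = true) : Gd g H Lt.d u := by
  unfold dp_d_2 at h
  rcases brec_true h with h | h
  · exact lS_good (T := T) (x := Lt.d) hM0 hu [Lt.f, Lt.d, Lt.f] (hat (rf_3 hy) 1 rfl) h
  · exact lS_good (T := T) (x := Lt.d) hM0 hu [Lt.g, Lt.d, Lt.g] (hat (rf_0 hy) 1 rfl) h
theorem dp_d_3_s (hy : Hy g H)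
    (j u : ℕ) (hu : u < M) (h : dp_d_3 j u = true) : Gd g H Lt.d u := by
  unfold dp_d_3 at h
  rcases brec_true h with h | h
  · exact dp_d_1_s hy j u hu h
  · exact dp_d_2_s hy j u hu h
theorem dp_d_4_s (hy : Hy g H)
    (j u : ℕ) (hu : u < M) (h : dp_d_4 j u = true) : Gd g H Lt.d u := by
  unfold dp_d_4 at h
  rcases brec_true h with h | h
  · exact lS_good (T := T) (x := Lt.d) hM0 hu [Lt.zi, Lt.d, Lt.z] (hat (rf_31 hy) 2 rfl) h
  · exact lF_good (T := T) (x := Lt.d) hM0 [Lt.c, Lt.d, Lt.c, Lt.d, Lt.c, Lt.d, Lt.c, Lt.a] (hat (rf_36 hy) 2 rfl) h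
theorem dp_d_5_s (hy : Hy g H)
    (j u : ℕ) (hu : u < M) (h : dp_d_5 j u = true) : Gd g H Lt.d u := by
  unfold dp_d_5 at h
  rcases brec_true h with h | h
  · exact lF_good (T := T) (x := Lt.d) hM0 [Lt.c, Lt.d, Lt.c, Lt.a, Lt.d, Lt.c, Lt.d, Lt.c] (hat (rf_36 hy) 6 rfl) h
  · exact dp_d_4_s hy j u hu h
theorem dp_d_6_s (hy : Hy g H)
    (j u : ℕ) (hu : u < M) (h : dp_d_6 j u = true) : Gd g H Lt.d u := by
  unfold dp_d_6 at h
  rcases brec_true h with h | h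
  · exact lS_good (T := T) (x := Lt.d) hM0 hu [Lt.a, Lt.d, Lt.a] (hat (rf_11 hy) 0 rfl) h
  · exact lF_good (T := T) (x := Lt.d) hM0 [Lt.c, Lt.a, Lt.d, Lt.c, Lt.d, Lt.c, Lt.d, Lt.c] (hat (rf_36 hy) 8 rfl) h
theorem dp_d_7_s (hy : Hy g H)
    (j u : ℕ) (hu : u < M) (h : dp_d_7 j u = true) : Gd g H Lt.d u := by
  unfold dp_d_7 at h
  rcases brec_true h with h | h
  · exact lF_good (T := T) (x := Lt.d) hM0 [Lt.c, Lt.d, Lt.c, Lt.d, Lt.c, Lt.a, Lt.d, Lt.c] (hat (rf_36 hy) 4 rfl) h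
  · exact dp_d_6_s hy j u hu h
theorem dp_d_8_s (hy : Hy g H)
    (j u : ℕ) (hu : u < M) (h : dp_d_8 j u = true) : Gd g H Lt.d u := by
  unfold dp_d_8 at h
  rcases brec_true h with h | h
  · exact lF_good (T := T) (x := Lt.d) hM0 [Lt.a, Lt.c, Lt.d, Lt.c, Lt.d, Lt.c, Lt.d, Lt.c] (hat (rb_36 hy) 8 rfl) h
  · exact lH_good (T := T) (x := Lt.d) hM0 [] [] (by rw [show cP g H 0 = _ from cc_zero]; exact sub_rel hy.1 (hy.2.2 _ (by decide))) h
theorem dp_d_9_s (hy : Hy g H)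
    (j u : ℕ) (hu : u < M) (h : dp_d_9 j u = true) : Gd g H Lt.d u := by
  unfold dp_d_9 at h
  rcases brec_true h with h | h
  · exact lS_good (T := T) (x := Lt.d) hM0 hu [Lt.c, Lt.d, Lt.c, Lt.d, Lt.a, Lt.c, Lt.d, Lt.c] (hat (rb_36 hy) 4 rfl) h
  · exact lS_good (T := T) (x := Lt.d) hM0 hu [Lt.c, Lt.d, Lt.c, Lt.a, Lt.d, Lt.c, Lt.d, Lt.c] (hat (rf_36 hy) 6 rfl) h
theorem dp_d_10_s (hy : Hy g H)
    (j u : ℕ) (hu : u < M) (h : dp_d_10 j u = true) : Gd g H Lt.d u := by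
  unfold dp_d_10 at h
  rcases brec_true h with h | h
  · exact lS_good (T := T) (x := Lt.d) hM0 hu [Lt.c, Lt.a, Lt.d, Lt.c, Lt.d, Lt.c, Lt.d, Lt.c] (hat (rf_36 hy) 8 rfl) h
  · exact lS_good (T := T) (x := Lt.d) hM0 hu [Lt.c, Lt.d, Lt.c, Lt.d, Lt.c, Lt.d, Lt.c, Lt.a] (hat (rf_36 hy) 2 rfl) h
theorem dp_d_11_s (hy : Hy g H)
    (j u : ℕ) (hu : u < M) (h : dp_d_11 j u = true) : Gd g H Lt.d u := by
  unfold dp_d_11 at h
  rcases brec_true h with h | h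
  · exact dp_d_9_s hy j u hu h
  · exact dp_d_10_s hy j u hu h
theorem dp_d_12_s (hy : Hy g H)
    (j u : ℕ) (hu : u < M) (h : dp_d_12 j u = true) : Gd g H Lt.d u := by
  unfold dp_d_12 at h
  rcases brec_true h with h | h
  · exact dp_d_8_s hy j u hu h
  · exact dp_d_11_s hy j u hu h
theorem dp_d_13_s (hy : Hy g H)
    (j u : ℕ) (hu : u < M) (h : dp_d_13 j u = true) : Gd g H Lt.d u := by
  unfold dp_d_13 at h
  rcases brec_true h with h | h
  · exact dp_d_7_s hy j u hu h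
  · exact dp_d_12_s hy j u hu h
theorem dp_d_14_s (hy : Hy g H)
    (j u : ℕ) (hu : u < M) (h : dp_d_14 j u = true) : Gd g H Lt.d u := by
  unfold dp_d_14 at h
  rcases brec_true h with h | h
  · exact dp_d_5_s hy j u hu h
  · exact dp_d_13_s hy j u hu h
theorem dp_d_15_s (hy : Hy g H)
    (j u : ℕ) (hu : u < M) (h : dp_d_15 j u = true) : Gd g H Lt.d u := by
  unfold dp_d_15 at h
  rcases brec_true h with h | h
  · exact dp_d_3_s hy j u hu h
  · exact dp_d_14_s hy j u hu h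
theorem dp_d_16_s (hy : Hy g H)
    (j u : ℕ) (hu : u < M) (h : dp_d_16 j u = true) : Gd g H Lt.d u := by
  unfold dp_d_16 at h
  rcases brec_true h with h | h
  · exact dp_d_0_s hy j u hu h
  · exact dp_d_15_s hy j u hu h
theorem dp_d_17_s (hy : Hy g H)
    (j u : ℕ) (hu : u < M) (h : dp_d_17 j u = true) : Gd g H Lt.d u := by
  unfold dp_d_17 at h
  rcases brec_true h with h | h
  · exact lS_good (T := T) (x := Lt.d) hM0 hu [Lt.d] (hat (rf_24 hy) 0 rfl) h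
  · exact dp_d_16_s hy j u hu h
theorem dp_d_18_s (hy : Hy g H)
    (j u : ℕ) (hu : u < M) (h : dp_d_18 j u = true) : Gd g H Lt.d u := by
  unfold dp_d_18 at h
  rcases brec_true h with h | h
  · exact lF3_good (T := T) (x := Lt.d) hM0 .a .d .a (hat (rf_11 hy) 0 rfl) h
  · exact dp_d_17_s hy j u hu h
theorem dp_d_19_s (hy : Hy g H)
    (j u : ℕ) (hu : u < M) (h : dp_d_19 j u = true) : Gd g H Lt.d u := by
  unfold dp_d_19 at h
  rcases brec_true h with h | h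
  · rcases brec_true h with h | h
    · exact lF3_good (T := T) (x := Lt.d) hM0 .f .d .f (hat (rf_3 hy) 1 rfl) h
    · exact lF3_good (T := T) (x := Lt.d) hM0 .zi .d .z (hat (rf_31 hy) 2 rfl) h
  · exact dp_d_18_s hy j u hu h
theorem dp_d_20_s (hy : Hy g H)
    (j u : ℕ) (hu : u < M) (h : dp_d_20 j u = true) : Gd g H Lt.d u := by
  unfold dp_d_20 at h
  rcases brec_true h with h | h
  · rcases brec_true h with h | h
    · exact lF3_good (T := T) (x := Lt.d) hM0 .g .d .g (hat (rf_0 hy) 1 rfl) h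
    · rcases brec_true h with h | h
      · exact lDef_good (T := T) (x := Lt.d) (by decide) rfl h
      · exact lPar_good (T := T) (x := Lt.d) (x' := Lt.d) (by decide) rfl (ivt hy _ _ rfl) h
  · exact dp_d_19_s hy j u hu h
theorem snd_d (hy : Hy g H)
    (j u : ℕ) (hu : u < M) (h : disp_d j u = true) : Gd g H Lt.d u := by
  unfold disp_d at h
  rcases brec_true h with h | h
  · rcases brec_true h with h | h
    · exact lF1_good (T := T) (x := Lt.d) hM0 .d (hat (rf_24 hy) 0 rfl) h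
    · rcases brec_true h with h | h
      · exact lF3_good (T := T) (x := Lt.d) hM0 .z .d .zi (hat (rf_31 hy) 0 rfl) h
      · exact lF3_good (T := T) (x := Lt.d) hM0 .b .d .b (hat (rf_8 hy) 0 rfl) h
  · exact dp_d_20_s hy j u hu h
theorem snc_d (hy : Hy g H)
    (j u : ℕ) (hu : u < M) (h : chk_d j u = true) : (T Lt.d u < A ∧ Gd g H Lt.d u) ∨ (A ≤ T Lt.d u ∧ MG u < A) := by
  unfold chk_d at h
  cases hb : Nat.ble A (T_d u) with
  | true => rw [hb] at h; exact Or.inr ⟨le_of_ble hb, le_of_ble h⟩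
  | false => rw [hb] at h; exact Or.inl ⟨lt_of_ble_false hb, snd_d hy j u hu h⟩
theorem dp_e_0_s (hy : Hy g H)
    (j u : ℕ) (hu : u < M) (h : dp_e_0 j u = true) : Gd g H Lt.e u := by
  unfold dp_e_0 at h
  rcases brec_true h with h | h
  · exact lF3_good (T := T) (x := Lt.e) hM0 .zi .e .z (hat (rf_30 hy) 2 rfl) h
  · exact lDef_good (T := T) (x := Lt.e) (by decide) rfl h
theorem dp_e_1_s (hy : Hy g H)
    (j u : ℕ) (hu : u < M) (h : dp_e_1 j u = true) : Gd g H Lt.e u := by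
  unfold dp_e_1 at h
  rcases brec_true h with h | h
  · exact lS_good (T := T) (x := Lt.e) hM0 hu [Lt.c, Lt.e, Lt.c] (hat (rf_6 hy) 0 rfl) h
  · exact lS_good (T := T) (x := Lt.e) hM0 hu [Lt.b, Lt.e, Lt.b] (hat (rf_13 hy) 0 rfl) h
theorem dp_e_2_s (hy : Hy g H)
    (j u : ℕ) (hu : u < M) (h : dp_e_2 j u = true) : Gd g H Lt.e u := by
  unfold dp_e_2 at h
  rcases brec_true h with h | h
  · exact lS_good (T := T) (x := Lt.e) hM0 hu [Lt.z, Lt.e, Lt.zi] (hat (rf_30 hy) 0 rfl) h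
  · exact dp_e_1_s hy j u hu h
theorem dp_e_3_s (hy : Hy g H)
    (j u : ℕ) (hu : u < M) (h : dp_e_3 j u = true) : Gd g H Lt.e u := by
  unfold dp_e_3 at h
  rcases brec_true h with h | h
  · exact lS_good (T := T) (x := Lt.e) hM0 hu [Lt.f, Lt.e, Lt.f] (hat (rf_2 hy) 1 rfl) h
  · exact lS_good (T := T) (x := Lt.e) hM0 hu [Lt.g, Lt.e, Lt.g] (hat (rf_1 hy) 1 rfl) h
theorem dp_e_4_s (hy : Hy g H)
    (j u : ℕ) (hu : u < M) (h : dp_e_4 j u = true) : Gd g H Lt.e u := by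
  unfold dp_e_4 at h
  rcases brec_true h with h | h
  · exact lS_good (T := T) (x := Lt.e) hM0 hu [Lt.a, Lt.e, Lt.a] (hat (rf_10 hy) 0 rfl) h
  · exact lH_good (T := T) (x := Lt.e) hM0 [] [] (by rw [show cP g H 0 = _ from cc_zero]; exact sub_rel hy.1 (hy.2.2 _ (by decide))) h
theorem dp_e_5_s (hy : Hy g H)
    (j u : ℕ) (hu : u < M) (h : dp_e_5 j u = true) : Gd g H Lt.e u := by
  unfold dp_e_5 at h
  rcases brec_true h with h | h
  · exact lS_good (T := T) (x := Lt.e) hM0 hu [Lt.zi, Lt.e, Lt.z] (hat (rf_30 hy) 2 rfl) h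
  · exact dp_e_4_s hy j u hu h
theorem dp_e_6_s (hy : Hy g H)
    (j u : ℕ) (hu : u < M) (h : dp_e_6 j u = true) : Gd g H Lt.e u := by
  unfold dp_e_6 at h
  rcases brec_true h with h | h
  · exact lF_good (T := T) (x := Lt.e) hM0 [Lt.d, Lt.e, Lt.d, Lt.e, Lt.d] (hat (rf_16 hy) 0 rfl) h
  · exact dp_e_5_s hy j u hu h
theorem dp_e_7_s (hy : Hy g H)
    (j u : ℕ) (hu : u < M) (h : dp_e_7 j u = true) : Gd g H Lt.e u := by
  unfold dp_e_7 at h
  rcases brec_true h with h | h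
  · exact dp_e_3_s hy j u hu h
  · exact dp_e_6_s hy j u hu h
theorem dp_e_8_s (hy : Hy g H)
    (j u : ℕ) (hu : u < M) (h : dp_e_8 j u = true) : Gd g H Lt.e u := by
  unfold dp_e_8 at h
  rcases brec_true h with h | h
  · exact dp_e_2_s hy j u hu h
  · exact dp_e_7_s hy j u hu h
theorem dp_e_9_s (hy : Hy g H)
    (j u : ℕ) (hu : u < M) (h : dp_e_9 j u = true) : Gd g H Lt.e u := by
  unfold dp_e_9 at h
  rcases brec_true h with h | h
  · exact lS_good (T := T) (x := Lt.e) hM0 hu [Lt.e] (hat (rf_25 hy) 0 rfl) h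
  · exact dp_e_8_s hy j u hu h
theorem dp_e_10_s (hy : Hy g H)
    (j u : ℕ) (hu : u < M) (h : dp_e_10 j u = true) : Gd g H Lt.e u := by
  unfold dp_e_10 at h
  rcases brec_true h with h | h
  · exact lPar_good (T := T) (x := Lt.e) (x' := Lt.e) (by decide) rfl (ivt hy _ _ rfl) h
  · exact dp_e_9_s hy j u hu h
theorem dp_e_11_s (hy : Hy g H)
    (j u : ℕ) (hu : u < M) (h : dp_e_11 j u = true) : Gd g H Lt.e u := by
  unfold dp_e_11 at h
  rcases brec_true h with h | h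
  · exact dp_e_0_s hy j u hu h
  · exact dp_e_10_s hy j u hu h
theorem dp_e_12_s (hy : Hy g H)
    (j u : ℕ) (hu : u < M) (h : dp_e_12 j u = true) : Gd g H Lt.e u := by
  unfold dp_e_12 at h
  rcases brec_true h with h | h
  · rcases brec_true h with h | h
    · exact lF3_good (T := T) (x := Lt.e) hM0 .f .e .f (hat (rf_2 hy) 1 rfl) h
    · exact lF3_good (T := T) (x := Lt.e) hM0 .z .e .zi (hat (rf_30 hy) 0 rfl) h
  · exact dp_e_11_s hy j u hu h
theorem snd_e (hy : Hy g H)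
    (j u : ℕ) (hu : u < M) (h : disp_e j u = true) : Gd g H Lt.e u := by
  unfold disp_e at h
  rcases brec_true h with h | h
  · rcases brec_true h with h | h
    · exact lF1_good (T := T) (x := Lt.e) hM0 .e (hat (rf_25 hy) 0 rfl) h
    · exact lF3_good (T := T) (x := Lt.e) hM0 .b .e .b (hat (rf_13 hy) 0 rfl) h
  · rcases brec_true h with h | h
    · rcases brec_true h with h | h
      · exact lF3_good (T := T) (x := Lt.e) hM0 .a .e .a (hat (rf_10 hy) 0 rfl) h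
      · rcases brec_true h with h | h
        · exact lF3_good (T := T) (x := Lt.e) hM0 .g .e .g (hat (rf_1 hy) 1 rfl) h
        · exact lF3_good (T := T) (x := Lt.e) hM0 .c .e .c (hat (rf_6 hy) 0 rfl) h
    · exact dp_e_12_s hy j u hu h
theorem snc_e (hy : Hy g H)
    (j u : ℕ) (hu : u < M) (h : chk_e j u = true) : (T Lt.e u < A ∧ Gd g H Lt.e u) ∨ (A ≤ T Lt.e u ∧ MG u < A) := by
  unfold chk_e at h
  cases hb : Nat.ble A (T_e u) with
  | true => rw [hb] at h; exact Or.inr ⟨le_of_ble hb, le_of_ble h⟩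
  | false => rw [hb] at h; exact Or.inl ⟨lt_of_ble_false hb, snd_e hy j u hu h⟩
theorem dp_f_0_s (hy : Hy g H)
    (j u : ℕ) (hu : u < M) (h : dp_f_0 j u = true) : Gd g H Lt.f u := by
  unfold dp_f_0 at h
  rcases brec_true h with h | h
  · exact lF3_good (T := T) (x := Lt.f) hM0 .c .f .c (hat (rf_5 hy) 0 rfl) h
  · exact lF3_good (T := T) (x := Lt.f) hM0 .d .f .d (hat (rf_3 hy) 0 rfl) h
theorem dp_f_1_s (hy : Hy g H)
    (j u : ℕ) (hu : u < M) (h : dp_f_1 j u = true) : Gd g H Lt.f u := by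
  unfold dp_f_1 at h
  rcases brec_true h with h | h
  · exact lF3_good (T := T) (x := Lt.f) hM0 .a .f .a (hat (rf_9 hy) 0 rfl) h
  · exact lF3_good (T := T) (x := Lt.f) hM0 .e .f .e (hat (rf_2 hy) 0 rfl) h
theorem dp_f_2_s (hy : Hy g H)
    (j u : ℕ) (hu : u < M) (h : dp_f_2 j u = true) : Gd g H Lt.f u := by
  unfold dp_f_2 at h
  rcases brec_true h with h | h
  · exact lF_good (T := T) (x := Lt.f) hM0 [Lt.b, Lt.f, Lt.b, Lt.f, Lt.b] (hat (rf_14 hy) 0 rfl) h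
  · exact lF_good (T := T) (x := Lt.f) hM0 [Lt.g, Lt.f, Lt.a, Lt.g] (hat (rf_35 hy) 3 rfl) h
theorem dp_f_3_s (hy : Hy g H)
    (j u : ℕ) (hu : u < M) (h : dp_f_3 j u = true) : Gd g H Lt.f u := by
  unfold dp_f_3 at h
  rcases brec_true h with h | h
  · exact lF_good (T := T) (x := Lt.f) hM0 [Lt.a, Lt.g, Lt.f, Lt.g] (hat (rf_35 hy) 0 rfl) h
  · exact lS_good (T := T) (x := Lt.f) hM0 hu [Lt.c, Lt.f, Lt.c] (hat (rf_5 hy) 0 rfl) h
theorem dp_f_4_s (hy : Hy g H)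
    (j u : ℕ) (hu : u < M) (h : dp_f_4 j u = true) : Gd g H Lt.f u := by
  unfold dp_f_4 at h
  rcases brec_true h with h | h
  · exact lS_good (T := T) (x := Lt.f) hM0 hu [Lt.e, Lt.f, Lt.e] (hat (rf_2 hy) 0 rfl) h
  · exact lS_good (T := T) (x := Lt.f) hM0 hu [Lt.z, Lt.f, Lt.zi] (hat (rf_29 hy) 0 rfl) h
theorem dp_f_5_s (hy : Hy g H)
    (j u : ℕ) (hu : u < M) (h : dp_f_5 j u = true) : Gd g H Lt.f u := by
  unfold dp_f_5 at h
  rcases brec_true h with h | h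
  · exact lS_good (T := T) (x := Lt.f) hM0 hu [Lt.d, Lt.f, Lt.d] (hat (rf_3 hy) 0 rfl) h
  · exact dp_f_4_s hy j u hu h
theorem dp_f_6_s (hy : Hy g H)
    (j u : ℕ) (hu : u < M) (h : dp_f_6 j u = true) : Gd g H Lt.f u := by
  unfold dp_f_6 at h
  rcases brec_true h with h | h
  · exact lF_good (T := T) (x := Lt.f) hM0 [Lt.g, Lt.f, Lt.g, Lt.a] (hat (rb_35 hy) 1 rfl) h
  · exact lS_good (T := T) (x := Lt.f) hM0 hu [Lt.zi, Lt.f, Lt.z] (hat (rf_29 hy) 2 rfl) h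
theorem dp_f_7_s (hy : Hy g H)
    (j u : ℕ) (hu : u < M) (h : dp_f_7 j u = true) : Gd g H Lt.f u := by
  unfold dp_f_7 at h
  rcases brec_true h with h | h
  · exact lF_good (T := T) (x := Lt.f) hM0 [Lt.g, Lt.b, Lt.f, Lt.g, Lt.b, Lt.f, Lt.g, Lt.zi, Lt.b, Lt.f, Lt.g, Lt.b, Lt.f, Lt.g, Lt.b] (hat (rf_37 hy) 8 rfl) h
  · exact lS_good (T := T) (x := Lt.f) hM0 hu [Lt.b, Lt.f, Lt.b, Lt.f, Lt.b] (hat (rf_14 hy) 0 rfl) h
theorem dp_f_8_s (hy : Hy g H)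
    (j u : ℕ) (hu : u < M) (h : dp_f_8 j u = true) : Gd g H Lt.f u := by
  unfold dp_f_8 at h
  rcases brec_true h with h | h
  · exact lS_good (T := T) (x := Lt.f) hM0 hu [Lt.a, Lt.f, Lt.a] (hat (rf_9 hy) 0 rfl) h
  · exact dp_f_7_s hy j u hu h
theorem dp_f_9_s (hy : Hy g H)
    (j u : ℕ) (hu : u < M) (h : dp_f_9 j u = true) : Gd g H Lt.f u := by
  unfold dp_f_9 at h
  rcases brec_true h with h | h
  · exact lF_good (T := T) (x := Lt.f) hM0 [Lt.c, Lt.b, Lt.a, Lt.f, Lt.c, Lt.b, Lt.a, Lt.f, Lt.c, Lt.b, Lt.a, Lt.f, Lt.c, Lt.b, Lt.a, Lt.f, Lt.c, Lt.b, Lt.a] (hat (rb_38 hy) 1 rfl) h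
  · exact lF_good (T := T) (x := Lt.f) hM0 [Lt.g, Lt.a, Lt.f, Lt.g] (hat (rb_35 hy) 3 rfl) h
theorem dp_f_10_s (hy : Hy g H)
    (j u : ℕ) (hu : u < M) (h : dp_f_10 j u = true) : Gd g H Lt.f u := by
  unfold dp_f_10 at h
  rcases brec_true h with h | h
  · exact lF_good (T := T) (x := Lt.f) hM0 [Lt.b, Lt.g, Lt.f, Lt.b, Lt.z, Lt.g, Lt.f, Lt.b, Lt.g, Lt.f, Lt.b, Lt.g, Lt.f, Lt.b, Lt.g] (hat (rb_37 hy) 12 rfl) h
  · exact lH_good (T := T) (x := Lt.f) hM0 [] [] (by rw [show cP g H 0 = _ from cc_zero]; exact sub_rel hy.1 (hy.2.2 _ (by decide))) h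
theorem dp_f_11_s (hy : Hy g H)
    (j u : ℕ) (hu : u < M) (h : dp_f_11 j u = true) : Gd g H Lt.f u := by
  unfold dp_f_11 at h
  rcases brec_true h with h | h
  · exact lF_good (T := T) (x := Lt.f) hM0 [Lt.g, Lt.b, Lt.f, Lt.g, Lt.zi, Lt.b, Lt.f, Lt.g, Lt.b, Lt.f, Lt.g, Lt.b, Lt.f, Lt.g, Lt.b] (hat (rf_37 hy) 11 rfl) h
  · exact lF_good (T := T) (x := Lt.f) hM0 [Lt.g, Lt.b, Lt.f, Lt.g, Lt.b, Lt.f, Lt.g, Lt.b, Lt.f, Lt.g, Lt.zi, Lt.b, Lt.f, Lt.g, Lt.b] (hat (rf_37 hy) 5 rfl) h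
theorem dp_f_12_s (hy : Hy g H)
    (j u : ℕ) (hu : u < M) (h : dp_f_12 j u = true) : Gd g H Lt.f u := by
  unfold dp_f_12 at h
  rcases brec_true h with h | h
  · exact lF_good (T := T) (x := Lt.f) hM0 [Lt.a, Lt.b, Lt.c, Lt.f, Lt.a, Lt.b, Lt.c, Lt.f, Lt.a, Lt.b, Lt.c, Lt.f, Lt.a, Lt.b, Lt.c, Lt.f, Lt.a, Lt.b, Lt.c] (hat (rf_38 hy) 0 rfl) h
  · exact dp_f_11_s hy j u hu h
theorem dp_f_13_s (hy : Hy g H)
    (j u : ℕ) (hu : u < M) (h : dp_f_13 j u = true) : Gd g H Lt.f u := by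
  unfold dp_f_13 at h
  rcases brec_true h with h | h
  · exact dp_f_10_s hy j u hu h
  · exact dp_f_12_s hy j u hu h
theorem dp_f_14_s (hy : Hy g H)
    (j u : ℕ) (hu : u < M) (h : dp_f_14 j u = true) : Gd g H Lt.f u := by
  unfold dp_f_14 at h
  rcases brec_true h with h | h
  · exact dp_f_9_s hy j u hu h
  · exact dp_f_13_s hy j u hu h
theorem dp_f_15_s (hy : Hy g H)
    (j u : ℕ) (hu : u < M) (h : dp_f_15 j u = true) : Gd g H Lt.f u := by
  unfold dp_f_15 at h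
  rcases brec_true h with h | h
  · exact dp_f_8_s hy j u hu h
  · exact dp_f_14_s hy j u hu h
theorem dp_f_16_s (hy : Hy g H)
    (j u : ℕ) (hu : u < M) (h : dp_f_16 j u = true) : Gd g H Lt.f u := by
  unfold dp_f_16 at h
  rcases brec_true h with h | h
  · exact dp_f_6_s hy j u hu h
  · exact dp_f_15_s hy j u hu h
theorem dp_f_17_s (hy : Hy g H)
    (j u : ℕ) (hu : u < M) (h : dp_f_17 j u = true) : Gd g H Lt.f u := by
  unfold dp_f_17 at h
  rcases brec_true h with h | h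
  · exact dp_f_5_s hy j u hu h
  · exact dp_f_16_s hy j u hu h
theorem dp_f_18_s (hy : Hy g H)
    (j u : ℕ) (hu : u < M) (h : dp_f_18 j u = true) : Gd g H Lt.f u := by
  unfold dp_f_18 at h
  rcases brec_true h with h | h
  · exact dp_f_3_s hy j u hu h
  · exact dp_f_17_s hy j u hu h
theorem dp_f_19_s (hy : Hy g H)
    (j u : ℕ) (hu : u < M) (h : dp_f_19 j u = true) : Gd g H Lt.f u := by
  unfold dp_f_19 at h
  rcases brec_true h with h | h
  · exact lS_good (T := T) (x := Lt.f) hM0 hu [Lt.f] (hat (rf_26 hy) 0 rfl) h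
  · exact dp_f_18_s hy j u hu h
theorem dp_f_20_s (hy : Hy g H)
    (j u : ℕ) (hu : u < M) (h : dp_f_20 j u = true) : Gd g H Lt.f u := by
  unfold dp_f_20 at h
  rcases brec_true h with h | h
  · exact dp_f_2_s hy j u hu h
  · exact dp_f_19_s hy j u hu h
theorem dp_f_21_s (hy : Hy g H)
    (j u : ℕ) (hu : u < M) (h : dp_f_21 j u = true) : Gd g H Lt.f u := by
  unfold dp_f_21 at h
  rcases brec_true h with h | h
  · exact dp_f_1_s hy j u hu h
  · exact dp_f_20_s hy j u hu h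
theorem dp_f_22_s (hy : Hy g H)
    (j u : ℕ) (hu : u < M) (h : dp_f_22 j u = true) : Gd g H Lt.f u := by
  unfold dp_f_22 at h
  rcases brec_true h with h | h
  · rcases brec_true h with h | h
    · exact lF3_good (T := T) (x := Lt.f) hM0 .zi .f .z (hat (rf_29 hy) 2 rfl) h
    · exact dp_f_0_s hy j u hu h
  · exact dp_f_21_s hy j u hu h
theorem snd_f (hy : Hy g H)
    (j u : ℕ) (hu : u < M) (h : disp_f j u = true) : Gd g H Lt.f u := by
  unfold disp_f at h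
  rcases brec_true h with h | h
  · rcases brec_true h with h | h
    · exact lF1_good (T := T) (x := Lt.f) hM0 .f (hat (rf_26 hy) 0 rfl) h
    · exact lDef_good (T := T) (x := Lt.f) (by decide) rfl h
  · rcases brec_true h with h | h
    · rcases brec_true h with h | h
      · exact lPar_good (T := T) (x := Lt.f) (x' := Lt.f) (by decide) rfl (ivt hy _ _ rfl) h
      · exact lF3_good (T := T) (x := Lt.f) hM0 .z .f .zi (hat (rf_29 hy) 0 rfl) h
    · exact dp_f_22_s hy j u hu h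
theorem snc_f (hy : Hy g H)
    (j u : ℕ) (hu : u < M) (h : chk_f j u = true) : (T Lt.f u < A ∧ Gd g H Lt.f u) ∨ (A ≤ T Lt.f u ∧ MG u < A) := by
  unfold chk_f at h
  cases hb : Nat.ble A (T_f u) with
  | true => rw [hb] at h; exact Or.inr ⟨le_of_ble hb, le_of_ble h⟩
  | false => rw [hb] at h; exact Or.inl ⟨lt_of_ble_false hb, snd_f hy j u hu h⟩
theorem dp_g_0_s (hy : Hy g H)
    (j u : ℕ) (hu : u < M) (h : dp_g_0 j u = true) : Gd g H Lt.g u := by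
  unfold dp_g_0 at h
  rcases brec_true h with h | h
  · exact lF3_good (T := T) (x := Lt.g) hM0 .d .g .d (hat (rf_0 hy) 0 rfl) h
  · exact lF3_good (T := T) (x := Lt.g) hM0 .a .g .a (hat (rf_7 hy) 0 rfl) h
theorem dp_g_1_s (hy : Hy g H)
    (j u : ℕ) (hu : u < M) (h : dp_g_1 j u = true) : Gd g H Lt.g u := by
  unfold dp_g_1 at h
  rcases brec_true h with h | h
  · exact lF3_good (T := T) (x := Lt.g) hM0 .e .g .e (hat (rf_1 hy) 0 rfl) h
  · exact lF_good (T := T) (x := Lt.g) hM0 [Lt.b, Lt.g, Lt.b, Lt.g, Lt.b] (hat (rf_15 hy) 0 rfl) h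
theorem dp_g_2_s (hy : Hy g H)
    (j u : ℕ) (hu : u < M) (h : dp_g_2 j u = true) : Gd g H Lt.g u := by
  unfold dp_g_2 at h
  rcases brec_true h with h | h
  · exact lS_good (T := T) (x := Lt.g) hM0 hu [Lt.g] (hat (rf_27 hy) 0 rfl) h
  · exact lF_good (T := T) (x := Lt.g) hM0 [Lt.f, Lt.g, Lt.a, Lt.f] (hat (rb_35 hy) 2 rfl) h
theorem dp_g_3_s (hy : Hy g H)
    (j u : ℕ) (hu : u < M) (h : dp_g_3 j u = true) : Gd g H Lt.g u := by
  unfold dp_g_3 at h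
  rcases brec_true h with h | h
  · exact lF_good (T := T) (x := Lt.g) hM0 [Lt.f, Lt.g, Lt.f, Lt.a] (hat (rf_35 hy) 2 rfl) h
  · exact lF_good (T := T) (x := Lt.g) hM0 [Lt.a, Lt.f, Lt.g, Lt.f] (hat (rb_35 hy) 4 rfl) h
theorem dp_g_4_s (hy : Hy g H)
    (j u : ℕ) (hu : u < M) (h : dp_g_4 j u = true) : Gd g H Lt.g u := by
  unfold dp_g_4 at h
  rcases brec_true h with h | h
  · exact lS_good (T := T) (x := Lt.g) hM0 hu [Lt.d, Lt.g, Lt.d] (hat (rf_0 hy) 0 rfl) h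
  · exact lF_good (T := T) (x := Lt.g) hM0 [Lt.f, Lt.a, Lt.g, Lt.f] (hat (rf_35 hy) 4 rfl) h
theorem dp_g_5_s (hy : Hy g H)
    (j u : ℕ) (hu : u < M) (h : dp_g_5 j u = true) : Gd g H Lt.g u := by
  unfold dp_g_5 at h
  rcases brec_true h with h | h
  · exact lS_good (T := T) (x := Lt.g) hM0 hu [Lt.c, Lt.g, Lt.c] (hat (rf_4 hy) 0 rfl) h
  · exact lS_good (T := T) (x := Lt.g) hM0 hu [Lt.e, Lt.g, Lt.e] (hat (rf_1 hy) 0 rfl) h
theorem dp_g_6_s (hy : Hy g H)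
    (j u : ℕ) (hu : u < M) (h : dp_g_6 j u = true) : Gd g H Lt.g u := by
  unfold dp_g_6 at h
  rcases brec_true h with h | h
  · exact lS_good (T := T) (x := Lt.g) hM0 hu [Lt.z, Lt.g, Lt.zi] (hat (rf_28 hy) 0 rfl) h
  · exact lS_good (T := T) (x := Lt.g) hM0 hu [Lt.zi, Lt.g, Lt.z] (hat (rf_28 hy) 2 rfl) h
theorem dp_g_7_s (hy : Hy g H)
    (j u : ℕ) (hu : u < M) (h : dp_g_7 j u = true) : Gd g H Lt.g u := by
  unfold dp_g_7 at h
  rcases brec_true h with h | h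
  · exact lF_good (T := T) (x := Lt.g) hM0 [Lt.f, Lt.b, Lt.g, Lt.f, Lt.b, Lt.z, Lt.g, Lt.f, Lt.b, Lt.g, Lt.f, Lt.b, Lt.g, Lt.f, Lt.b] (hat (rb_37 hy) 11 rfl) h
  · exact lF_good (T := T) (x := Lt.g) hM0 [Lt.b, Lt.f, Lt.g, Lt.b, Lt.f, Lt.g, Lt.b, Lt.f, Lt.g, Lt.b, Lt.f, Lt.g, Lt.zi, Lt.b, Lt.f] (hat (rf_37 hy) 3 rfl) h
theorem dp_g_8_s (hy : Hy g H)
    (j u : ℕ) (hu : u < M) (h : dp_g_8 j u = true) : Gd g H Lt.g u := by
  unfold dp_g_8 at h
  rcases brec_true h with h | h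
  · exact lS_good (T := T) (x := Lt.g) hM0 hu [Lt.a, Lt.g, Lt.a] (hat (rf_7 hy) 0 rfl) h
  · exact lF_good (T := T) (x := Lt.g) hM0 [Lt.f, Lt.b, Lt.g, Lt.f, Lt.b, Lt.g, Lt.f, Lt.b, Lt.g, Lt.f, Lt.b, Lt.g, Lt.f, Lt.b, Lt.z] (hat (rb_37 hy) 2 rfl) h
theorem dp_g_9_s (hy : Hy g H)
    (j u : ℕ) (hu : u < M) (h : dp_g_9 j u = true) : Gd g H Lt.g u := by
  unfold dp_g_9 at h
  rcases brec_true h with h | h
  · exact lF_good (T := T) (x := Lt.g) hM0 [Lt.b, Lt.f, Lt.g, Lt.b, Lt.f, Lt.g, Lt.zi, Lt.b, Lt.f, Lt.g, Lt.b, Lt.f, Lt.g, Lt.b, Lt.f] (hat (rf_37 hy) 9 rfl) h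
  · exact lF_good (T := T) (x := Lt.g) hM0 [Lt.f, Lt.b, Lt.g, Lt.f, Lt.b, Lt.g, Lt.f, Lt.b, Lt.z, Lt.g, Lt.f, Lt.b, Lt.g, Lt.f, Lt.b] (hat (rb_37 hy) 8 rfl) h
theorem dp_g_10_s (hy : Hy g H)
    (j u : ℕ) (hu : u < M) (h : dp_g_10 j u = true) : Gd g H Lt.g u := by
  unfold dp_g_10 at h
  rcases brec_true h with h | h
  · exact lF_good (T := T) (x := Lt.g) hM0 [Lt.f, Lt.b, Lt.g, Lt.f, Lt.b, Lt.g, Lt.f, Lt.b, Lt.g, Lt.f, Lt.b, Lt.z, Lt.g, Lt.f, Lt.b] (hat (rb_37 hy) 5 rfl) h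
  · exact lS_good (T := T) (x := Lt.g) hM0 hu [Lt.b, Lt.g, Lt.b, Lt.g, Lt.b] (hat (rf_15 hy) 0 rfl) h
theorem dp_g_11_s (hy : Hy g H)
    (j u : ℕ) (hu : u < M) (h : dp_g_11 j u = true) : Gd g H Lt.g u := by
  unfold dp_g_11 at h
  rcases brec_true h with h | h
  · exact dp_g_9_s hy j u hu h
  · exact dp_g_10_s hy j u hu h
theorem dp_g_12_s (hy : Hy g H)
    (j u : ℕ) (hu : u < M) (h : dp_g_12 j u = true) : Gd g H Lt.g u := by
  unfold dp_g_12 at h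
  rcases brec_true h with h | h
  · exact dp_g_8_s hy j u hu h
  · exact dp_g_11_s hy j u hu h
theorem dp_g_13_s (hy : Hy g H)
    (j u : ℕ) (hu : u < M) (h : dp_g_13 j u = true) : Gd g H Lt.g u := by
  unfold dp_g_13 at h
  rcases brec_true h with h | h
  · exact dp_g_7_s hy j u hu h
  · exact dp_g_12_s hy j u hu h
theorem dp_g_14_s (hy : Hy g H)
    (j u : ℕ) (hu : u < M) (h : dp_g_14 j u = true) : Gd g H Lt.g u := by
  unfold dp_g_14 at h
  rcases brec_true h with h | h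
  · exact dp_g_6_s hy j u hu h
  · exact dp_g_13_s hy j u hu h
theorem dp_g_15_s (hy : Hy g H)
    (j u : ℕ) (hu : u < M) (h : dp_g_15 j u = true) : Gd g H Lt.g u := by
  unfold dp_g_15 at h
  rcases brec_true h with h | h
  · exact dp_g_5_s hy j u hu h
  · exact dp_g_14_s hy j u hu h
theorem dp_g_16_s (hy : Hy g H)
    (j u : ℕ) (hu : u < M) (h : dp_g_16 j u = true) : Gd g H Lt.g u := by
  unfold dp_g_16 at h
  rcases brec_true h with h | h
  · exact dp_g_4_s hy j u hu h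
  · exact dp_g_15_s hy j u hu h
theorem dp_g_17_s (hy : Hy g H)
    (j u : ℕ) (hu : u < M) (h : dp_g_17 j u = true) : Gd g H Lt.g u := by
  unfold dp_g_17 at h
  rcases brec_true h with h | h
  · exact dp_g_3_s hy j u hu h
  · exact dp_g_16_s hy j u hu h
theorem dp_g_18_s (hy : Hy g H)
    (j u : ℕ) (hu : u < M) (h : dp_g_18 j u = true) : Gd g H Lt.g u := by
  unfold dp_g_18 at h
  rcases brec_true h with h | h
  · exact dp_g_2_s hy j u hu h
  · exact dp_g_17_s hy j u hu h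
theorem dp_g_19_s (hy : Hy g H)
    (j u : ℕ) (hu : u < M) (h : dp_g_19 j u = true) : Gd g H Lt.g u := by
  unfold dp_g_19 at h
  rcases brec_true h with h | h
  · exact dp_g_1_s hy j u hu h
  · exact dp_g_18_s hy j u hu h
theorem dp_g_20_s (hy : Hy g H)
    (j u : ℕ) (hu : u < M) (h : dp_g_20 j u = true) : Gd g H Lt.g u := by
  unfold dp_g_20 at h
  rcases brec_true h with h | h
  · exact dp_g_0_s hy j u hu h
  · exact dp_g_19_s hy j u hu h
theorem dp_g_21_s (hy : Hy g H)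
    (j u : ℕ) (hu : u < M) (h : dp_g_21 j u = true) : Gd g H Lt.g u := by
  unfold dp_g_21 at h
  rcases brec_true h with h | h
  · rcases brec_true h with h | h
    · exact lF3_good (T := T) (x := Lt.g) hM0 .zi .g .z (hat (rf_28 hy) 2 rfl) h
    · exact lF3_good (T := T) (x := Lt.g) hM0 .c .g .c (hat (rf_4 hy) 0 rfl) h
  · exact dp_g_20_s hy j u hu h
theorem snd_g (hy : Hy g H)
    (j u : ℕ) (hu : u < M) (h : disp_g j u = true) : Gd g H Lt.g u := by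
  unfold disp_g at h
  rcases brec_true h with h | h
  · rcases brec_true h with h | h
    · exact lF1_good (T := T) (x := Lt.g) hM0 .g (hat (rf_27 hy) 0 rfl) h
    · exact lDef_good (T := T) (x := Lt.g) (by decide) rfl h
  · rcases brec_true h with h | h
    · rcases brec_true h with h | h
      · exact lPar_good (T := T) (x := Lt.g) (x' := Lt.g) (by decide) rfl (ivt hy _ _ rfl) h
      · exact lF3_good (T := T) (x := Lt.g) hM0 .z .g .zi (hat (rf_28 hy) 0 rfl) h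
    · exact dp_g_21_s hy j u hu h
theorem snc_g (hy : Hy g H)
    (j u : ℕ) (hu : u < M) (h : chk_g j u = true) : (T Lt.g u < A ∧ Gd g H Lt.g u) ∨ (A ≤ T Lt.g u ∧ MG u < A) := by
  unfold chk_g at h
  cases hb : Nat.ble A (T_g u) with
  | true => rw [hb] at h; exact Or.inr ⟨le_of_ble hb, le_of_ble h⟩
  | false => rw [hb] at h; exact Or.inl ⟨lt_of_ble_false hb, snd_g hy j u hu h⟩
theorem dp_z_0_s (hy : Hy g H)
    (j u : ℕ) (hu : u < M) (h : dp_z_0 j u = true) : Gd g H Lt.z u := by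
  unfold dp_z_0 at h
  rcases brec_true h with h | h
  · exact lF3_good (T := T) (x := Lt.z) hM0 .b .zi .b (hat (rf_33 hy) 1 rfl) h
  · exact lF3_good (T := T) (x := Lt.z) hM0 .c .zi .c (hat (rf_32 hy) 1 rfl) h
theorem dp_z_1_s (hy : Hy g H)
    (j u : ℕ) (hu : u < M) (h : dp_z_1 j u = true) : Gd g H Lt.z u := by
  unfold dp_z_1 at h
  rcases brec_true h with h | h
  · exact lF3_good (T := T) (x := Lt.z) hM0 .f .zi .f (hat (rf_29 hy) 1 rfl) h
  · exact lF3_good (T := T) (x := Lt.z) hM0 .g .zi .g (hat (rf_28 hy) 1 rfl) h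
theorem dp_z_2_s (hy : Hy g H)
    (j u : ℕ) (hu : u < M) (h : dp_z_2 j u = true) : Gd g H Lt.z u := by
  unfold dp_z_2 at h
  rcases brec_true h with h | h
  · exact lF_good (T := T) (x := Lt.z) hM0 [Lt.g, Lt.f, Lt.b, Lt.g, Lt.f, Lt.b, Lt.g, Lt.f, Lt.b, Lt.g, Lt.f, Lt.b, Lt.g, Lt.f, Lt.b] (hat (rb_37 hy) 1 rfl) h
  · exact lS_good (T := T) (x := Lt.z) hM0 hu [Lt.e, Lt.zi, Lt.e] (hat (rf_30 hy) 1 rfl) h
theorem dp_z_3_s (hy : Hy g H)
    (j u : ℕ) (hu : u < M) (h : dp_z_3 j u = true) : Gd g H Lt.z u := by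
  unfold dp_z_3 at h
  rcases brec_true h with h | h
  · exact lS_good (T := T) (x := Lt.z) hM0 hu [Lt.d, Lt.zi, Lt.d] (hat (rf_31 hy) 1 rfl) h
  · exact dp_z_2_s hy j u hu h
theorem dp_z_4_s (hy : Hy g H)
    (j u : ℕ) (hu : u < M) (h : dp_z_4 j u = true) : Gd g H Lt.z u := by
  unfold dp_z_4 at h
  rcases brec_true h with h | h
  · exact lS_good (T := T) (x := Lt.z) hM0 hu [Lt.c, Lt.zi, Lt.c] (hat (rf_32 hy) 1 rfl) h
  · exact lS_good (T := T) (x := Lt.z) hM0 hu [Lt.b, Lt.zi, Lt.b] (hat (rf_33 hy) 1 rfl) h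
theorem dp_z_5_s (hy : Hy g H)
    (j u : ℕ) (hu : u < M) (h : dp_z_5 j u = true) : Gd g H Lt.z u := by
  unfold dp_z_5 at h
  rcases brec_true h with h | h
  · exact lS_good (T := T) (x := Lt.z) hM0 hu [Lt.a, Lt.zi, Lt.a] (hat (rf_34 hy) 1 rfl) h
  · exact lS_good (T := T) (x := Lt.z) hM0 hu [Lt.g, Lt.f, Lt.b, Lt.g, Lt.f, Lt.b, Lt.g, Lt.f, Lt.b, Lt.g, Lt.f, Lt.b, Lt.g, Lt.f, Lt.b] (hat (rb_37 hy) 1 rfl) h
theorem dp_z_6_s (hy : Hy g H)
    (j u : ℕ) (hu : u < M) (h : dp_z_6 j u = true) : Gd g H Lt.z u := by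
  unfold dp_z_6 at h
  rcases brec_true h with h | h
  · exact lS_good (T := T) (x := Lt.z) hM0 hu [Lt.f, Lt.zi, Lt.f] (hat (rf_29 hy) 1 rfl) h
  · exact dp_z_5_s hy j u hu h
theorem dp_z_7_s (hy : Hy g H)
    (j u : ℕ) (hu : u < M) (h : dp_z_7 j u = true) : Gd g H Lt.z u := by
  unfold dp_z_7 at h
  rcases brec_true h with h | h
  · exact lS_good (T := T) (x := Lt.z) hM0 hu [Lt.g, Lt.zi, Lt.g] (hat (rf_28 hy) 1 rfl) h
  · exact dp_z_6_s hy j u hu h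
theorem dp_z_8_s (hy : Hy g H)
    (j u : ℕ) (hu : u < M) (h : dp_z_8 j u = true) : Gd g H Lt.z u := by
  unfold dp_z_8 at h
  rcases brec_true h with h | h
  · exact dp_z_4_s hy j u hu h
  · exact dp_z_7_s hy j u hu h
theorem dp_z_9_s (hy : Hy g H)
    (j u : ℕ) (hu : u < M) (h : dp_z_9 j u = true) : Gd g H Lt.z u := by
  unfold dp_z_9 at h
  rcases brec_true h with h | h
  · exact dp_z_3_s hy j u hu h
  · exact dp_z_8_s hy j u hu h
theorem dp_z_10_s (hy : Hy g H)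
    (j u : ℕ) (hu : u < M) (h : dp_z_10 j u = true) : Gd g H Lt.z u := by
  unfold dp_z_10 at h
  rcases brec_true h with h | h
  · exact lF3_good (T := T) (x := Lt.z) hM0 .e .zi .e (hat (rf_30 hy) 1 rfl) h
  · exact dp_z_9_s hy j u hu h
theorem dp_z_11_s (hy : Hy g H)
    (j u : ℕ) (hu : u < M) (h : dp_z_11 j u = true) : Gd g H Lt.z u := by
  unfold dp_z_11 at h
  rcases brec_true h with h | h
  · exact lS_good (T := T) (x := Lt.z) hM0 hu [Lt.zi] (hat (rf_41 hy) 1 rfl) h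
  · exact dp_z_10_s hy j u hu h
theorem dp_z_12_s (hy : Hy g H)
    (j u : ℕ) (hu : u < M) (h : dp_z_12 j u = true) : Gd g H Lt.z u := by
  unfold dp_z_12 at h
  rcases brec_true h with h | h
  · exact lF3_good (T := T) (x := Lt.z) hM0 .d .zi .d (hat (rf_31 hy) 1 rfl) h
  · exact dp_z_11_s hy j u hu h
theorem dp_z_13_s (hy : Hy g H)
    (j u : ℕ) (hu : u < M) (h : dp_z_13 j u = true) : Gd g H Lt.z u := by
  unfold dp_z_13 at h
  rcases brec_true h with h | h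
  · exact dp_z_1_s hy j u hu h
  · exact dp_z_12_s hy j u hu h
theorem dp_z_14_s (hy : Hy g H)
    (j u : ℕ) (hu : u < M) (h : dp_z_14 j u = true) : Gd g H Lt.z u := by
  unfold dp_z_14 at h
  rcases brec_true h with h | h
  · exact dp_z_0_s hy j u hu h
  · exact dp_z_13_s hy j u hu h
theorem dp_z_15_s (hy : Hy g H)
    (j u : ℕ) (hu : u < M) (h : dp_z_15 j u = true) : Gd g H Lt.z u := by
  unfold dp_z_15 at h
  rcases brec_true h with h | h
  · rcases brec_true h with h | h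
    · exact lF1_good (T := T) (x := Lt.z) hM0 .zi (hat (rf_41 hy) 1 rfl) h
    · exact lF3_good (T := T) (x := Lt.z) hM0 .a .zi .a (hat (rf_34 hy) 1 rfl) h
  · exact dp_z_14_s hy j u hu h
theorem snd_z (hy : Hy g H)
    (j u : ℕ) (hu : u < M) (h : disp_z j u = true) : Gd g H Lt.z u := by
  unfold disp_z at h
  rcases brec_true h with h | h
  · exact lPar_good (T := T) (x := Lt.z) (x' := Lt.zi) (by decide) rfl (ivt hy _ _ rfl) h
  · rcases brec_true h with h | h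
    · exact lDef_good (T := T) (x := Lt.z) (by decide) rfl h
    · exact dp_z_15_s hy j u hu h
theorem snc_z (hy : Hy g H)
    (j u : ℕ) (hu : u < M) (h : chk_z j u = true) : (T Lt.z u < A ∧ Gd g H Lt.z u) ∨ (A ≤ T Lt.z u ∧ MG u < A) := by
  unfold chk_z at h
  cases hb : Nat.ble A (T_z u) with
  | true => rw [hb] at h; exact Or.inr ⟨le_of_ble hb, le_of_ble h⟩
  | false => rw [hb] at h; exact Or.inl ⟨lt_of_ble_false hb, snd_z hy j u hu h⟩
theorem dp_zi_0_s (hy : Hy g H)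
    (j u : ℕ) (hu : u < M) (h : dp_zi_0 j u = true) : Gd g H Lt.zi u := by
  unfold dp_zi_0 at h
  rcases brec_true h with h | h
  · exact lF3_good (T := T) (x := Lt.zi) hM0 .a .z .a (hat (rf_34 hy) 3 rfl) h
  · exact lF3_good (T := T) (x := Lt.zi) hM0 .c .z .c (hat (rf_32 hy) 3 rfl) h
theorem dp_zi_1_s (hy : Hy g H)
    (j u : ℕ) (hu : u < M) (h : dp_zi_1 j u = true) : Gd g H Lt.zi u := by
  unfold dp_zi_1 at h
  rcases brec_true h with h | h
  · exact lF3_good (T := T) (x := Lt.zi) hM0 .g .z .g (hat (rf_28 hy) 3 rfl) h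
  · exact lF3_good (T := T) (x := Lt.zi) hM0 .f .z .f (hat (rf_29 hy) 3 rfl) h
theorem dp_zi_2_s (hy : Hy g H)
    (j u : ℕ) (hu : u < M) (h : dp_zi_2 j u = true) : Gd g H Lt.zi u := by
  unfold dp_zi_2 at h
  rcases brec_true h with h | h
  · exact lS_good (T := T) (x := Lt.zi) hM0 hu [Lt.c, Lt.z, Lt.c] (hat (rf_32 hy) 3 rfl) h
  · exact lF_good (T := T) (x := Lt.zi) hM0 [Lt.b, Lt.f, Lt.g, Lt.b, Lt.f, Lt.g, Lt.b, Lt.f, Lt.g, Lt.b, Lt.f, Lt.g, Lt.b, Lt.f, Lt.g] (hat (rf_37 hy) 0 rfl) h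
theorem dp_zi_3_s (hy : Hy g H)
    (j u : ℕ) (hu : u < M) (h : dp_zi_3 j u = true) : Gd g H Lt.zi u := by
  unfold dp_zi_3 at h
  rcases brec_true h with h | h
  · exact lS_good (T := T) (x := Lt.zi) hM0 hu [Lt.d, Lt.z, Lt.d] (hat (rf_31 hy) 3 rfl) h
  · exact dp_zi_2_s hy j u hu h
theorem dp_zi_4_s (hy : Hy g H)
    (j u : ℕ) (hu : u < M) (h : dp_zi_4 j u = true) : Gd g H Lt.zi u := by
  unfold dp_zi_4 at h
  rcases brec_true h with h | h
  · exact lS_good (T := T) (x := Lt.zi) hM0 hu [Lt.a, Lt.z, Lt.a] (hat (rf_34 hy) 3 rfl) h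
  · exact lS_good (T := T) (x := Lt.zi) hM0 hu [Lt.g, Lt.z, Lt.g] (hat (rf_28 hy) 3 rfl) h
theorem dp_zi_5_s (hy : Hy g H)
    (j u : ℕ) (hu : u < M) (h : dp_zi_5 j u = true) : Gd g H Lt.zi u := by
  unfold dp_zi_5 at h
  rcases brec_true h with h | h
  · exact lS_good (T := T) (x := Lt.zi) hM0 hu [Lt.b, Lt.z, Lt.b] (hat (rf_33 hy) 3 rfl) h
  · exact lS_good (T := T) (x := Lt.zi) hM0 hu [Lt.f, Lt.z, Lt.f] (hat (rf_29 hy) 3 rfl) h
theorem dp_zi_6_s (hy : Hy g H)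
    (j u : ℕ) (hu : u < M) (h : dp_zi_6 j u = true) : Gd g H Lt.zi u := by
  unfold dp_zi_6 at h
  rcases brec_true h with h | h
  · exact lS_good (T := T) (x := Lt.zi) hM0 hu [Lt.e, Lt.z, Lt.e] (hat (rf_30 hy) 3 rfl) h
  · exact dp_zi_5_s hy j u hu h
theorem dp_zi_7_s (hy : Hy g H)
    (j u : ℕ) (hu : u < M) (h : dp_zi_7 j u = true) : Gd g H Lt.zi u := by
  unfold dp_zi_7 at h
  rcases brec_true h with h | h
  · exact dp_zi_4_s hy j u hu h
  · exact dp_zi_6_s hy j u hu h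
theorem dp_zi_8_s (hy : Hy g H)
    (j u : ℕ) (hu : u < M) (h : dp_zi_8 j u = true) : Gd g H Lt.zi u := by
  unfold dp_zi_8 at h
  rcases brec_true h with h | h
  · exact dp_zi_3_s hy j u hu h
  · exact dp_zi_7_s hy j u hu h
theorem dp_zi_9_s (hy : Hy g H)
    (j u : ℕ) (hu : u < M) (h : dp_zi_9 j u = true) : Gd g H Lt.zi u := by
  unfold dp_zi_9 at h
  rcases brec_true h with h | h
  · exact lF3_good (T := T) (x := Lt.zi) hM0 .e .z .e (hat (rf_30 hy) 3 rfl) h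
  · exact dp_zi_8_s hy j u hu h
theorem dp_zi_10_s (hy : Hy g H)
    (j u : ℕ) (hu : u < M) (h : dp_zi_10 j u = true) : Gd g H Lt.zi u := by
  unfold dp_zi_10 at h
  rcases brec_true h with h | h
  · exact lS_good (T := T) (x := Lt.zi) hM0 hu [Lt.z] (hat (rf_41 hy) 0 rfl) h
  · exact dp_zi_9_s hy j u hu h
theorem dp_zi_11_s (hy : Hy g H)
    (j u : ℕ) (hu : u < M) (h : dp_zi_11 j u = true) : Gd g H Lt.zi u := by
  unfold dp_zi_11 at h
  rcases brec_true h with h | h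
  · exact lF3_good (T := T) (x := Lt.zi) hM0 .d .z .d (hat (rf_31 hy) 3 rfl) h
  · exact dp_zi_10_s hy j u hu h
theorem dp_zi_12_s (hy : Hy g H)
    (j u : ℕ) (hu : u < M) (h : dp_zi_12 j u = true) : Gd g H Lt.zi u := by
  unfold dp_zi_12 at h
  rcases brec_true h with h | h
  · exact dp_zi_1_s hy j u hu h
  · exact dp_zi_11_s hy j u hu h
theorem dp_zi_13_s (hy : Hy g H)
    (j u : ℕ) (hu : u < M) (h : dp_zi_13 j u = true) : Gd g H Lt.zi u := by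
  unfold dp_zi_13 at h
  rcases brec_true h with h | h
  · exact dp_zi_0_s hy j u hu h
  · exact dp_zi_12_s hy j u hu h
theorem dp_zi_14_s (hy : Hy g H)
    (j u : ℕ) (hu : u < M) (h : dp_zi_14 j u = true) : Gd g H Lt.zi u := by
  unfold dp_zi_14 at h
  rcases brec_true h with h | h
  · rcases brec_true h with h | h
    · exact lF1_good (T := T) (x := Lt.zi) hM0 .z (hat (rf_41 hy) 0 rfl) h
    · exact lF3_good (T := T) (x := Lt.zi) hM0 .b .z .b (hat (rf_33 hy) 3 rfl) h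
  · exact dp_zi_13_s hy j u hu h
theorem snd_zi (hy : Hy g H)
    (j u : ℕ) (hu : u < M) (h : disp_zi j u = true) : Gd g H Lt.zi u := by
  unfold disp_zi at h
  rcases brec_true h with h | h
  · exact lDef_good (T := T) (x := Lt.zi) (by decide) rfl h
  · rcases brec_true h with h | h
    · exact lPar_good (T := T) (x := Lt.zi) (x' := Lt.z) (by decide) rfl (ivt hy _ _ rfl) h
    · exact dp_zi_14_s hy j u hu h
theorem snc_zi (hy : Hy g H)
    (j u : ℕ) (hu : u < M) (h : chk_zi j u = true) : (T Lt.zi u < A ∧ Gd g H Lt.zi u) ∨ (A ≤ T Lt.zi u ∧ MG u < A) := by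
  unfold chk_zi at h
  cases hb : Nat.ble A (T_zi u) with
  | true => rw [hb] at h; exact Or.inr ⟨le_of_ble hb, le_of_ble h⟩
  | false => rw [hb] at h; exact Or.inl ⟨lt_of_ble_false hb, snd_zi hy j u hu h⟩
theorem dM_0_s (hy : Hy g H) (j z1 z2 u : ℕ) (h : dM_0 j z1 z2 u = true) : GdM g H u := by
  unfold dM_0 at h
  rcases brec_true h with h | h
  · rcases brec_true h with h | h
    · exact mCo_good (T := T) (y := .b) hM0 h
    · exact mCo_good (T := T) (y := .g) hM0 h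
  · rcases brec_true h with h | h
    · exact mCo_good (T := T) (y := .f) hM0 h
    · exact mCo_good (T := T) (y := .z) hM0 h
theorem dM_1_s (hy : Hy g H) (j z1 z2 u : ℕ) (h : dM_1 j z1 z2 u = true) : GdM g H u := by
  unfold dM_1 at h
  rcases brec_true h with h | h
  · exact mCo_good (T := T) (y := .d) hM0 h
  · exact mCo_good (T := T) (y := .c) hM0 h
theorem dM_2_s (hy : Hy g H) (j z1 z2 u : ℕ) (h : dM_2 j z1 z2 u = true) : GdM g H u := by
  unfold dM_2 at h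
  exact mCo_good (T := T) (y := .zi) hM0 h
theorem dM_3_s (hy : Hy g H) (j z1 z2 u : ℕ) (h : dM_3 j z1 z2 u = true) : GdM g H u := by
  unfold dM_3 at h
  exact mCo_good (T := T) (y := .e) hM0 h
theorem dM_4_s (hy : Hy g H) (j z1 z2 u : ℕ) (h : dM_4 j z1 z2 u = true) : GdM g H u := by
  unfold dM_4 at h
  exact mCo_good (T := T) (y := .a) hM0 h
theorem dM_5_s (hy : Hy g H) (j z1 z2 u : ℕ) (h : dM_5 j z1 z2 u = true) : GdM g H u := by
  unfold dM_5 at h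
  rcases brec_true h with h | h
  · rcases brec_true h with h | h
    · exact mRel_good (T := T) hM0 [Lt.b, Lt.z] [Lt.z, Lt.b] (pat hy (rf_33 hy) 3 rfl) h
    · exact mRel_good (T := T) hM0 [Lt.b, Lt.d] [Lt.d, Lt.b] (pat hy (rf_8 hy) 0 rfl) h
  · rcases brec_true h with h | h
    · rcases brec_true h with h | h
      · exact mRel_good (T := T) hM0 [Lt.f, Lt.b, Lt.f, Lt.b] [Lt.b, Lt.f] (pat hy (rf_14 hy) 1 rfl) h
      · exact mRel_good (T := T) hM0 [Lt.z, Lt.f, Lt.zi] [Lt.f] (pat hy (rf_29 hy) 0 rfl) h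
    · rcases brec_true h with h | h
      · exact mRel_good (T := T) hM0 [Lt.zi, Lt.b] [Lt.b, Lt.zi] (pat hy (rf_33 hy) 2 rfl) h
      · exact mRel_good (T := T) hM0 [Lt.c, Lt.zi] [Lt.zi, Lt.c] (pat hy (rf_32 hy) 1 rfl) h
theorem dM_6_s (hy : Hy g H) (j z1 z2 u : ℕ) (h : dM_6 j z1 z2 u = true) : GdM g H u := by
  unfold dM_6 at h
  rcases brec_true h with h | h
  · rcases brec_true h with h | h
    · rcases brec_true h with h | h
      · exact mRel_good (T := T) hM0 [Lt.b, Lt.f, Lt.b] [Lt.f, Lt.b, Lt.f] (pat hy (rf_14 hy) 0 rfl) h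
      · exact mRel_good (T := T) hM0 [Lt.d, Lt.g] [Lt.g, Lt.d] (pat hy (rf_0 hy) 0 rfl) h
    · rcases brec_true h with h | h
      · exact mRel_good (T := T) hM0 [Lt.zi, Lt.b, Lt.z] [Lt.b] (pat hy (rf_33 hy) 2 rfl) h
      · rcases brec_true h with h | h
        · exact mRel_good (T := T) hM0 [Lt.d, Lt.f] [Lt.f, Lt.d] (pat hy (rf_3 hy) 0 rfl) h
        · exact mRel_good (T := T) hM0 [Lt.d, Lt.b] [Lt.b, Lt.d] (pat hy (rf_8 hy) 1 rfl) h
  · rcases brec_true h with h | h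
    · rcases brec_true h with h | h
      · exact mRel_good (T := T) hM0 [Lt.c, Lt.b, Lt.c, Lt.b] [Lt.b, Lt.c] (pat hy (rf_17 hy) 1 rfl) h
      · rcases brec_true h with h | h
        · exact mRel_good (T := T) hM0 [Lt.zi, Lt.c] [Lt.c, Lt.zi] (pat hy (rf_32 hy) 2 rfl) h
        · exact mRel_good (T := T) hM0 [Lt.d, Lt.b, Lt.d] [Lt.b] (pat hy (rf_8 hy) 1 rfl) h
    · rcases brec_true h with h | h
      · exact mRel_good (T := T) hM0 [Lt.c, Lt.a] [Lt.a, Lt.c] (pat hy (rf_12 hy) 1 rfl) h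
      · rcases brec_true h with h | h
        · exact mRel_good (T := T) hM0 [Lt.b, Lt.zi] [Lt.zi, Lt.b] (pat hy (rf_33 hy) 1 rfl) h
        · exact mRel_good (T := T) hM0 [Lt.c, Lt.g] [Lt.g, Lt.c] (pat hy (rf_4 hy) 0 rfl) h
theorem dM_7_s (hy : Hy g H) (j z1 z2 u : ℕ) (h : dM_7 j z1 z2 u = true) : GdM g H u := by
  unfold dM_7 at h
  rcases brec_true h with h | h
  · exact dM_5_s hy j z1 z2 u h
  · exact dM_6_s hy j z1 z2 u h
theorem dM_8_s (hy : Hy g H) (j z1 z2 u : ℕ) (h : dM_8 j z1 z2 u = true) : GdM g H u := by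
  unfold dM_8 at h
  rcases brec_true h with h | h
  · rcases brec_true h with h | h
    · exact mRel_good (T := T) hM0 [Lt.g, Lt.e] [Lt.e, Lt.g] (pat hy (rf_1 hy) 1 rfl) h
    · rcases brec_true h with h | h
      · exact mRel_good (T := T) hM0 [Lt.b, Lt.g] [Lt.g, Lt.b, Lt.g, Lt.b] (pat hy (rf_15 hy) 0 rfl) h
      · rcases brec_true h with h | h
        · exact mRel_good (T := T) hM0 [Lt.z, Lt.a, Lt.zi] [Lt.a] (pat hy (rf_34 hy) 0 rfl) h
        · exact mRel_good (T := T) hM0 [Lt.b, Lt.a] [Lt.a, Lt.b, Lt.a, Lt.b, Lt.a, Lt.b, Lt.a, Lt.b] (pat hy (rf_19 hy) 1 rfl) h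
  · rcases brec_true h with h | h
    · rcases brec_true h with h | h
      · exact mRel_good (T := T) hM0 [Lt.a, Lt.b, Lt.c, Lt.f, Lt.a, Lt.b, Lt.c, Lt.f, Lt.a, Lt.b, Lt.c, Lt.f, Lt.a] [Lt.f, Lt.c, Lt.b, Lt.a, Lt.f, Lt.c, Lt.b] (pat hy (rf_38 hy) 0 rfl) h
      · rcases brec_true h with h | h
        · exact mRel_good (T := T) hM0 [Lt.a, Lt.zi] [Lt.zi, Lt.a] (pat hy (rf_34 hy) 1 rfl) h
        · exact mRel_good (T := T) hM0 [Lt.a, Lt.b, Lt.c, Lt.f, Lt.a, Lt.b, Lt.c, Lt.f, Lt.a, Lt.b, Lt.c, Lt.f, Lt.a, Lt.b, Lt.c, Lt.f, Lt.a] [Lt.f, Lt.c, Lt.b] (pat hy (rf_38 hy) 0 rfl) h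
    · rcases brec_true h with h | h
      · exact mRel_good (T := T) hM0 [Lt.b, Lt.c, Lt.b, Lt.c] [Lt.c, Lt.b] (pat hy (rf_17 hy) 0 rfl) h
      · rcases brec_true h with h | h
        · exact mRel_good (T := T) hM0 [Lt.f, Lt.c] [Lt.c, Lt.f] (pat hy (rf_5 hy) 1 rfl) h
        · exact mRel_good (T := T) hM0 [Lt.b, Lt.f, Lt.g, Lt.b, Lt.f] [Lt.z, Lt.g, Lt.f, Lt.b, Lt.g, Lt.f, Lt.b, Lt.g, Lt.f, Lt.b, Lt.g] (pat hy (rf_37 hy) 0 rfl) h
theorem dM_9_s (hy : Hy g H) (j z1 z2 u : ℕ) (h : dM_9 j z1 z2 u = true) : GdM g H u := by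
  unfold dM_9 at h
  rcases brec_true h with h | h
  · rcases brec_true h with h | h
    · exact mRel_good (T := T) hM0 [Lt.a, Lt.d, Lt.c, Lt.d, Lt.c, Lt.d, Lt.c, Lt.d, Lt.c] [] (pat hy (rf_36 hy) 0 rfl) h
    · rcases brec_true h with h | h
      · exact mRel_good (T := T) hM0 [Lt.f, Lt.c, Lt.b, Lt.a, Lt.f, Lt.c] [Lt.a, Lt.b, Lt.c, Lt.f, Lt.a, Lt.b, Lt.c, Lt.f, Lt.a, Lt.b, Lt.c, Lt.f, Lt.a, Lt.b] (pat hy (rb_38 hy) 0 rfl) h
      · exact mRel_good (T := T) hM0 [Lt.f, Lt.zi] [Lt.zi, Lt.f] (pat hy (rf_29 hy) 1 rfl) h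
  · rcases brec_true h with h | h
    · exact mRel_good (T := T) hM0 [Lt.z, Lt.b] [Lt.b, Lt.z] (pat hy (rf_33 hy) 0 rfl) h
    · rcases brec_true h with h | h
      · exact mRel_good (T := T) hM0 [Lt.a, Lt.c, Lt.d, Lt.c, Lt.d, Lt.c] [Lt.d, Lt.c, Lt.d] (pat hy (rb_36 hy) 8 rfl) h
      · exact mRel_good (T := T) hM0 [Lt.f, Lt.a] [Lt.a, Lt.f] (pat hy (rf_9 hy) 1 rfl) h
theorem dM_10_s (hy : Hy g H) (j z1 z2 u : ℕ) (h : dM_10 j z1 z2 u = true) : GdM g H u := by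
  unfold dM_10 at h
  rcases brec_true h with h | h
  · rcases brec_true h with h | h
    · exact mRel_good (T := T) hM0 [Lt.c, Lt.d, Lt.c, Lt.d, Lt.c] [Lt.d, Lt.c, Lt.d, Lt.a] (pat hy (rf_36 hy) 4 rfl) h
    · rcases brec_true h with h | h
      · exact mRel_good (T := T) hM0 [Lt.f, Lt.e] [Lt.e, Lt.f] (pat hy (rf_2 hy) 1 rfl) h
      · exact mRel_good (T := T) hM0 [Lt.b, Lt.a, Lt.b, Lt.a, Lt.b] [Lt.a, Lt.b, Lt.a, Lt.b, Lt.a] (pat hy (rf_19 hy) 1 rfl) h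
  · rcases brec_true h with h | h
    · rcases brec_true h with h | h
      · exact mRel_good (T := T) hM0 [Lt.g, Lt.d] [Lt.d, Lt.g] (pat hy (rf_0 hy) 1 rfl) h
      · exact mRel_good (T := T) hM0 [Lt.g, Lt.b, Lt.g, Lt.b] [Lt.b, Lt.g] (pat hy (rf_15 hy) 1 rfl) h
    · rcases brec_true h with h | h
      · exact mRel_good (T := T) hM0 [Lt.zi, Lt.f] [Lt.f, Lt.zi] (pat hy (rf_29 hy) 2 rfl) h
      · exact mRel_good (T := T) hM0 [Lt.g, Lt.zi] [Lt.zi, Lt.g] (pat hy (rf_28 hy) 1 rfl) h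
theorem dM_11_s (hy : Hy g H) (j z1 z2 u : ℕ) (h : dM_11 j z1 z2 u = true) : GdM g H u := by
  unfold dM_11 at h
  rcases brec_true h with h | h
  · exact dM_9_s hy j z1 z2 u h
  · exact dM_10_s hy j z1 z2 u h
theorem dM_12_s (hy : Hy g H) (j z1 z2 u : ℕ) (h : dM_12 j z1 z2 u = true) : GdM g H u := by
  unfold dM_12 at h
  rcases brec_true h with h | h
  · exact dM_8_s hy j z1 z2 u h
  · exact dM_11_s hy j z1 z2 u h
theorem dM_13_s (hy : Hy g H) (j z1 z2 u : ℕ) (h : dM_13 j z1 z2 u = true) : GdM g H u := by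
  unfold dM_13 at h
  rcases brec_true h with h | h
  · rcases brec_true h with h | h
    · rcases brec_true h with h | h
      · exact mRel_good (T := T) hM0 [Lt.a, Lt.b, Lt.a, Lt.b] [Lt.b, Lt.a, Lt.b, Lt.a, Lt.b, Lt.a] (pat hy (rf_19 hy) 0 rfl) h
      · rcases brec_true h with h | h
        · exact mRel_good (T := T) hM0 [Lt.a, Lt.c] [Lt.c, Lt.a] (pat hy (rf_12 hy) 0 rfl) h
        · exact mRel_good (T := T) hM0 [Lt.e, Lt.b, Lt.e] [Lt.b] (pat hy (rf_13 hy) 1 rfl) h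
    · rcases brec_true h with h | h
      · exact mRel_good (T := T) hM0 [Lt.e, Lt.z, Lt.e] [Lt.z] (pat hy (rf_30 hy) 3 rfl) h
      · rcases brec_true h with h | h
        · exact mRel_good (T := T) hM0 [Lt.e, Lt.g] [Lt.g, Lt.e] (pat hy (rf_1 hy) 0 rfl) h
        · exact mRel_good (T := T) hM0 [Lt.e, Lt.a, Lt.e] [Lt.a] (pat hy (rf_10 hy) 1 rfl) h
  · rcases brec_true h with h | h
    · rcases brec_true h with h | h
      · exact mRel_good (T := T) hM0 [Lt.g, Lt.a] [Lt.a, Lt.g] (pat hy (rf_7 hy) 1 rfl) h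
      · rcases brec_true h with h | h
        · exact mRel_good (T := T) hM0 [Lt.b, Lt.g, Lt.b, Lt.g] [Lt.g, Lt.b] (pat hy (rf_15 hy) 0 rfl) h
        · exact mRel_good (T := T) hM0 [Lt.z, Lt.g] [Lt.g, Lt.z] (pat hy (rf_28 hy) 0 rfl) h
    · rcases brec_true h with h | h
      · exact mRel_good (T := T) hM0 [Lt.e, Lt.b] [Lt.b, Lt.e] (pat hy (rf_13 hy) 1 rfl) h
      · rcases brec_true h with h | h
        · exact mRel_good (T := T) hM0 [Lt.f, Lt.c, Lt.f] [Lt.c] (pat hy (rf_5 hy) 1 rfl) h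
        · exact mRel_good (T := T) hM0 [Lt.a, Lt.d, Lt.a] [Lt.d] (pat hy (rf_11 hy) 0 rfl) h
theorem dM_14_s (hy : Hy g H) (j z1 z2 u : ℕ) (h : dM_14 j z1 z2 u = true) : GdM g H u := by
  unfold dM_14 at h
  rcases brec_true h with h | h
  · rcases brec_true h with h | h
    · exact mRel_good (T := T) hM0 [Lt.b, Lt.e] [Lt.e, Lt.b] (pat hy (rf_13 hy) 0 rfl) h
    · rcases brec_true h with h | h
      · exact mRel_good (T := T) hM0 [Lt.f, Lt.g, Lt.b, Lt.f, Lt.g, Lt.b, Lt.f, Lt.g, Lt.zi, Lt.b, Lt.f] [Lt.b, Lt.g, Lt.f, Lt.b, Lt.g] (pat hy (rf_37 hy) 7 rfl) h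
      · exact mRel_good (T := T) hM0 [Lt.zi] [Lt.e, Lt.zi, Lt.e] (pat hy (rf_30 hy) 2 rfl) h
  · rcases brec_true h with h | h
    · exact mRel_good (T := T) hM0 [Lt.a, Lt.z, Lt.a] [Lt.z] (pat hy (rf_34 hy) 3 rfl) h
    · rcases brec_true h with h | h
      · exact mRel_good (T := T) hM0 [Lt.g, Lt.zi, Lt.g] [Lt.zi] (pat hy (rf_28 hy) 1 rfl) h
      · exact mRel_good (T := T) hM0 [Lt.a, Lt.d] [Lt.d, Lt.a] (pat hy (rf_11 hy) 0 rfl) h
theorem dM_15_s (hy : Hy g H) (j z1 z2 u : ℕ) (h : dM_15 j z1 z2 u = true) : GdM g H u := by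
  unfold dM_15 at h
  rcases brec_true h with h | h
  · rcases brec_true h with h | h
    · exact mRel_good (T := T) hM0 [Lt.zi, Lt.d] [Lt.d, Lt.zi] (pat hy (rf_31 hy) 2 rfl) h
    · rcases brec_true h with h | h
      · exact mRel_good (T := T) hM0 [Lt.b, Lt.a, Lt.b, Lt.a, Lt.b, Lt.a] [Lt.a, Lt.b, Lt.a, Lt.b] (pat hy (rf_19 hy) 1 rfl) h
      · exact mRel_good (T := T) hM0 [Lt.a, Lt.e] [Lt.e, Lt.a] (pat hy (rf_10 hy) 0 rfl) h
  · rcases brec_true h with h | h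
    · rcases brec_true h with h | h
      · exact mRel_good (T := T) hM0 [Lt.e, Lt.f] [Lt.f, Lt.e] (pat hy (rf_2 hy) 0 rfl) h
      · exact mRel_good (T := T) hM0 [Lt.c, Lt.d, Lt.c] [Lt.d, Lt.a, Lt.c, Lt.d, Lt.c, Lt.d] (pat hy (rf_36 hy) 2 rfl) h
    · rcases brec_true h with h | h
      · exact mRel_good (T := T) hM0 [Lt.c, Lt.d, Lt.a] [Lt.d, Lt.c, Lt.d, Lt.c, Lt.d, Lt.c] (pat hy (rb_36 hy) 6 rfl) h
      · exact mRel_good (T := T) hM0 [Lt.f, Lt.a, Lt.b, Lt.c, Lt.f, Lt.a, Lt.b, Lt.c, Lt.f, Lt.a, Lt.b, Lt.c] [Lt.c, Lt.b, Lt.a, Lt.f, Lt.c, Lt.b, Lt.a, Lt.f] (pat hy (rf_38 hy) 3 rfl) h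
theorem dM_16_s (hy : Hy g H) (j z1 z2 u : ℕ) (h : dM_16 j z1 z2 u = true) : GdM g H u := by
  unfold dM_16 at h
  rcases brec_true h with h | h
  · exact dM_14_s hy j z1 z2 u h
  · exact dM_15_s hy j z1 z2 u h
theorem dM_17_s (hy : Hy g H) (j z1 z2 u : ℕ) (h : dM_17 j z1 z2 u = true) : GdM g H u := by
  unfold dM_17 at h
  rcases brec_true h with h | h
  · exact dM_13_s hy j z1 z2 u h
  · exact dM_16_s hy j z1 z2 u h
theorem dM_18_s (hy : Hy g H) (j z1 z2 u : ℕ) (h : dM_18 j z1 z2 u = true) : GdM g H u := by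
  unfold dM_18 at h
  rcases brec_true h with h | h
  · exact dM_12_s hy j z1 z2 u h
  · exact dM_17_s hy j z1 z2 u h
theorem dM_19_s (hy : Hy g H) (j z1 z2 u : ℕ) (h : dM_19 j z1 z2 u = true) : GdM g H u := by
  unfold dM_19 at h
  rcases brec_true h with h | h
  · exact dM_7_s hy j z1 z2 u h
  · exact dM_18_s hy j z1 z2 u h
theorem dM_20_s (hy : Hy g H) (j z1 z2 u : ℕ) (h : dM_20 j z1 z2 u = true) : GdM g H u := by
  unfold dM_20 at h
  rcases brec_true h with h | h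
  · exact dM_4_s hy j z1 z2 u h
  · exact dM_19_s hy j z1 z2 u h
theorem dM_21_s (hy : Hy g H) (j z1 z2 u : ℕ) (h : dM_21 j z1 z2 u = true) : GdM g H u := by
  unfold dM_21 at h
  rcases brec_true h with h | h
  · exact dM_3_s hy j z1 z2 u h
  · exact dM_20_s hy j z1 z2 u h
theorem dM_22_s (hy : Hy g H) (j z1 z2 u : ℕ) (h : dM_22 j z1 z2 u = true) : GdM g H u := by
  unfold dM_22 at h
  rcases brec_true h with h | h
  · exact dM_2_s hy j z1 z2 u h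
  · exact dM_21_s hy j z1 z2 u h
theorem dM_23_s (hy : Hy g H) (j z1 z2 u : ℕ) (h : dM_23 j z1 z2 u = true) : GdM g H u := by
  unfold dM_23 at h
  rcases brec_true h with h | h
  · exact dM_1_s hy j z1 z2 u h
  · exact dM_22_s hy j z1 z2 u h
theorem dM_24_s (hy : Hy g H) (j z1 z2 u : ℕ) (h : dM_24 j z1 z2 u = true) : GdM g H u := by
  unfold dM_24 at h
  rcases brec_true h with h | h
  · exact dM_0_s hy j z1 z2 u h
  · exact dM_23_s hy j z1 z2 u h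
theorem sndM (hy : Hy g H) (u : ℕ) (h : chkM u = true) :
    MG u < A → MG u % M < u ∧ GdM g H u := by
  intro hA
  unfold chkM at h
  cases hb : Nat.ble A (MG u) with
  | true => exact absurd (le_of_ble hb) (by omega)
  | false =>
    rw [hb] at h
    obtain ⟨h1, h2⟩ := band_eq_true.1 h
    exact ⟨le_of_ble h1, dM_24_s hy _ _ _ _ h2⟩
theorem sndN (hy : Hy g H)
    (u : ℕ) (hu : u < M) (h : chkP u = true) : (∀ x, (T x u < A ∧ Gd g H x u) ∨ (A ≤ T x u ∧ MG u < A)) ∧ (MG u < A → MG u % M < u ∧ GdM g H u) := by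
  unfold chkP at h
  cases hb : Nat.ble M u with
  | true => exact absurd (le_of_ble hb) (by omega)
  | false =>
    rw [hb] at h
    change chkN u = true at h
    unfold chkN at h
    obtain ⟨h0, h⟩ := band_eq_true.1 h
    obtain ⟨h1, h⟩ := band_eq_true.1 h
    obtain ⟨h2, h⟩ := band_eq_true.1 h
    obtain ⟨h3, h⟩ := band_eq_true.1 h
    obtain ⟨h4, h⟩ := band_eq_true.1 h
    obtain ⟨h5, h⟩ := band_eq_true.1 h
    obtain ⟨h6, h⟩ := band_eq_true.1 h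
    obtain ⟨h7, h⟩ := band_eq_true.1 h
    obtain ⟨h8, h⟩ := band_eq_true.1 h
    refine ⟨?_, sndM hy u h⟩
    intro x
    cases x
    · exact snc_a hy _ u hu h0
    · exact snc_b hy _ u hu h1
    · exact snc_c hy _ u hu h2
    · exact snc_d hy _ u hu h3
    · exact snc_e hy _ u hu h4
    · exact snc_f hy _ u hu h5
    · exact snc_g hy _ u hu h6
    · exact snc_z hy _ u hu h7
    · exact snc_zi hy _ u hu h8
theorem final (hinv : ∀ x, g (inv x) = (g x)⁻¹) (hr : ∀ r ∈ rels, (r.map g).prod = 1) (hH : ∀ r ∈ subs, (r.map g).prod ∈ H)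
    (hall : ∀ u, u < M → chkP u = true) (hc : cntB liveP 15 0 = 5346) :
    H.relIndex (Subgroup.closure (Set.range g)) ≤ 5346 ∧ H.relIndex (Subgroup.closure (Set.range g)) ≠ 0 := by
  have hn := fun u hu => sndN ⟨hinv, hr, hH⟩ u hu (hall u hu)
  have h1 : ∀ x u, u < M → T x u < A → Good (fa g) T MG M (cP g H) x u := by
    intro x u hu hx
    rcases (hn u hu).1 x with h | h
    · exact h.2
    · exact absurd h.1 (by omega)
  have h2 : ∀ u, u < M → MG u < A → GoodM (fa g) T MG M (cP g H) u := fun u hu h => ((hn u hu).2 h).2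
  refine relIndex_le (M := M) (A := A) (T := T) (MG := MG) (c := cP g H) (by decide) cc_zero (sound_of_good h1 h2) ?_ ?_ ?_
  · intro u hu h
    exact ((hn u hu).2 h).1
  · intro x u hu h
    rcases (hn u hu).1 x with h' | h'
    · exact h'.1
    · exact absurd h'.2 (by omega)
  · rw [← hc, ← cntB_spec]
    apply Finset.card_le_card
    intro u
    simp only [Finset.mem_filter, Finset.mem_Ico]
    rintro ⟨⟨_, h3⟩, h4⟩
    refine ⟨⟨Nat.zero_le _, lt_of_lt_of_le h3 (by decide)⟩, ?_⟩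
    unfold liveP
    cases hb : Nat.ble M u with
    | true => exact absurd (le_of_ble hb) (by omega)
    | false => exact h4
end
end H35.TCMSoA
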